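import Cfsg.Agent.Lib.Steiner.Numbers

/-!
# The graphs of S(3,6,22)
-/

set_option autoImplicit false
set_option linter.unusedSectionVars false

namespace Cfsg.Agent.Lib.Steiner

open Finset Cfsg

section counting

variable {α : Type*} [Fintype α] [DecidableEq α] {B : Set (Finset α)}

theorem inter_cases (hα : Fintype.card α = 22) (hB : IsSteinerSystem 3 6 B) {b d : Finset α}
    (hb : b ∈ B) (hd : d ∈ B) : (d ∩ b).card = 0 ∨ (d ∩ b).card = 2 ∨ d = b := by
  obtain ⟨h0, h1, h2, h3, h4, h5, h6⟩ := nfib_3_6_22 hα hB hb
  have n1 := not_of_nfib_zero h1 hd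
  by_cases h : 3 ≤ (d ∩ b).card
  · exact Or.inr (Or.inr (eq_of_inter hB hd hb h))
  · omega

theorem nfib_eq_zero {Y : Finset α} {i : ℕ} (h : ∀ d ∈ B, (d ∩ Y).card ≠ i) : nfib B Y i = 0 := by
  rw [nfib, Finset.card_eq_zero, Finset.filter_eq_empty_iff]
  intro d hd
  exact h d (mem_blocks.1 hd)

theorem card_inter_self_eq (hB : IsSteinerSystem 3 6 B) {b Y : Finset α} (hb : b ∈ B) (hY : b ⊆ Y) :
    (b ∩ Y).card = 6 := by
  rw [Finset.inter_eq_left.2 hY, hB.1 b hb]

theorem nfib_union_six (hα : Fintype.card α = 22) (hB : IsSteinerSystem 3 6 B) {b c : Finset α}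
    (hb : b ∈ B) (hc : c ∈ B) (hbc : b ≠ c) (hle : ∀ d ∈ B, d ≠ b → d ≠ c → (d ∩ (b ∪ c)).card ≤ 4) :
    nfib B (b ∪ c) 6 = 2 := by
  have h1 : (blocks B).filter (fun d => (d ∩ (b ∪ c)).card = 6) = {b, c} := by
    ext d
    simp only [mem_filter, mem_blocks, mem_insert, mem_singleton]
    constructor
    · rintro ⟨hd, h6⟩
      by_contra hn
      push Not at hn
      have := hle d hd hn.1 hn.2
      omega
    · rintro (rfl | rfl)
      · exact ⟨hb, card_inter_self_eq hB hb subset_union_left⟩
      · exact ⟨hc, card_inter_self_eq hB hc subset_union_right⟩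
  rw [nfib, h1, card_pair hbc]

/-- Two disjoint blocks have no common disjoint block. -/
theorem nfib_union_disjoint (hα : Fintype.card α = 22) (hB : IsSteinerSystem 3 6 B) {b c : Finset α}
    (hb : b ∈ B) (hc : c ∈ B) (hbc : b ≠ c) (hd : Disjoint b c) : nfib B (b ∪ c) 0 = 0 := by
  have hcd : ∀ d : Finset α, (d ∩ (b ∪ c)).card = (d ∩ b).card + (d ∩ c).card := by
    intro d
    rw [inter_union_distrib_left, card_union_of_disjoint]
    exact hd.mono inter_subset_right inter_subset_right
  have hcases : ∀ d ∈ B, d ≠ b → d ≠ c → ((d ∩ b).card = 0 ∨ (d ∩ b).card = 2) ∧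
      ((d ∩ c).card = 0 ∨ (d ∩ c).card = 2) := by
    intro d hdB h1 h2
    refine ⟨?_, ?_⟩
    · rcases inter_cases hα hB hb hdB with h | h | h
      · exact Or.inl h
      · exact Or.inr h
      · exact absurd h h1
    · rcases inter_cases hα hB hc hdB with h | h | h
      · exact Or.inl h
      · exact Or.inr h
      · exact absurd h h2
  have hodd : ∀ d ∈ B, ∀ i, i = 1 ∨ i = 3 ∨ i = 5 → (d ∩ (b ∪ c)).card ≠ i := by
    intro d hdB i hi
    by_cases h1 : d = b
    · subst h1
      rw [card_inter_self_eq hB hdB subset_union_left]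
      omega
    by_cases h2 : d = c
    · subst h2
      rw [card_inter_self_eq hB hdB subset_union_right]
      omega
    have := hcases d hdB h1 h2
    rw [hcd]
    omega
  have h6 := nfib_union_six hα hB hb hc hbc (by
    intro d hdB h1 h2
    have := hcases d hdB h1 h2
    rw [hcd]
    omega)
  have n1 := nfib_eq_zero (B := B) (Y := b ∪ c) (i := 1) (fun d hdB => hodd d hdB 1 (by omega))
  have n3 := nfib_eq_zero (B := B) (Y := b ∪ c) (i := 3) (fun d hdB => hodd d hdB 3 (by omega))
  have n5 := nfib_eq_zero (B := B) (Y := b ∪ c) (i := 5) (fun d hdB => hodd d hdB 5 (by omega))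
  have hY : (b ∪ c).card = 12 := by
    rw [card_union_of_disjoint hd, hB.1 b hb, hB.1 c hc]
  have m0 := moment hB (b ∪ c) 0 77 (by norm_num) (by decide) (by rw [hα]; decide)
  have m1 := moment hB (b ∪ c) 1 21 (by norm_num) (by decide) (by rw [hα]; decide)
  have m2 := moment hB (b ∪ c) 2 5 (by norm_num) (by decide) (by rw [hα]; decide)
  rw [hY] at m0 m1 m2
  simp only [sum_range_succ, sum_range_zero, n1, n3, n5, h6] at m0 m1 m2
  norm_num [Nat.choose] at m0 m1 m2
  omega

/-- Two blocks meeting in two points have four common disjoint blocks. -/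
theorem nfib_union_two (hα : Fintype.card α = 22) (hB : IsSteinerSystem 3 6 B) {b c : Finset α}
    (hb : b ∈ B) (hc : c ∈ B) (hbc : b ≠ c) (h2 : (b ∩ c).card = 2) : nfib B (b ∪ c) 0 = 4 := by
  have hcases : ∀ d ∈ B, d ≠ b → d ≠ c → ((d ∩ b).card = 0 ∨ (d ∩ b).card = 2) ∧
      ((d ∩ c).card = 0 ∨ (d ∩ c).card = 2) := by
    intro d hdB h1 h2
    refine ⟨?_, ?_⟩
    · rcases inter_cases hα hB hb hdB with h | h | h
      · exact Or.inl h
      · exact Or.inr h
      · exact absurd h h1
    · rcases inter_cases hα hB hc hdB with h | h | h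
      · exact Or.inl h
      · exact Or.inr h
      · exact absurd h h2
  have hle : ∀ d : Finset α, (d ∩ (b ∪ c)).card ≤ (d ∩ b).card + (d ∩ c).card := by
    intro d
    rw [inter_union_distrib_left]
    exact card_union_le _ _
  have hge : ∀ d : Finset α, (d ∩ b).card ≤ (d ∩ (b ∪ c)).card ∧ (d ∩ c).card ≤ (d ∩ (b ∪ c)).card := by
    intro d
    exact ⟨card_le_card (inter_subset_inter_left subset_union_left),
      card_le_card (inter_subset_inter_left subset_union_right)⟩
  have hzero : ∀ d : Finset α, (d ∩ b).card = 0 → (d ∩ c).card = 0 → (d ∩ (b ∪ c)).card = 0 := by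
    intro d h3 h4
    have := hle d
    omega
  have h6 := nfib_union_six hα hB hb hc hbc (by
    intro d hdB h1 h2
    have := hcases d hdB h1 h2
    have := hle d
    omega)
  have n1 := nfib_eq_zero (B := B) (Y := b ∪ c) (i := 1) (by
    intro d hdB
    by_cases h1 : d = b
    · subst h1
      rw [card_inter_self_eq hB hdB subset_union_left]
      omega
    by_cases h3 : d = c
    · subst h3
      rw [card_inter_self_eq hB hdB subset_union_right]
      omega
    have h4 := hcases d hdB h1 h3
    have h5 := hge d
    have h6 := hzero d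
    omega)
  have n5 := nfib_eq_zero (B := B) (Y := b ∪ c) (i := 5) (by
    intro d hdB
    by_cases h1 : d = b
    · subst h1
      rw [card_inter_self_eq hB hdB subset_union_left]
      omega
    by_cases h3 : d = c
    · subst h3
      rw [card_inter_self_eq hB hdB subset_union_right]
      omega
    have h4 := hcases d hdB h1 h3
    have h5 := hle d
    omega)
  have hY : (b ∪ c).card = 10 := by
    have := card_union_add_card_inter b c
    rw [h2, hB.1 b hb, hB.1 c hc] at this
    omega
  have m0 := moment hB (b ∪ c) 0 77 (by norm_num) (by decide) (by rw [hα]; decide)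
  have m1 := moment hB (b ∪ c) 1 21 (by norm_num) (by decide) (by rw [hα]; decide)
  have m2 := moment hB (b ∪ c) 2 5 (by norm_num) (by decide) (by rw [hα]; decide)
  have m3 := moment hB (b ∪ c) 3 1 (by norm_num) (by decide) (by rw [hα]; decide)
  rw [hY] at m0 m1 m2 m3
  simp only [sum_range_succ, sum_range_zero, n1, n5, h6] at m0 m1 m2 m3
  norm_num [Nat.choose] at m0 m1 m2 m3
  omega

/-- The number of blocks through `a` disjoint from a block not containing `a`. -/
theorem card_through_disjoint (hα : Fintype.card α = 22) (hB : IsSteinerSystem 3 6 B) {b : Finset α}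
    (hb : b ∈ B) {a : α} (ha : a ∉ b) :
    ((blocks B).filter (fun c => a ∈ c ∧ Disjoint c b)).card = 6 := by
  set F := (blocks B).filter (fun c => a ∈ c) with hF
  have hFcard : F.card = 21 := by
    have h := lambda_eq hB {a} (by simp)
    simp only [card_singleton, singleton_subset_iff, hα] at h
    norm_num [Nat.choose] at h
    rw [hF]
    omega
  have h1 := sum_choose_inter F b 1
  have h2 : ∀ P ∈ b.powersetCard 1, (F.filter (fun c => P ⊆ c)).card = 5 := by
    intro P hP
    rw [mem_powersetCard, card_eq_one] at hP
    obtain ⟨hPb, p, rfl⟩ := hP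
    have hpb : p ∈ b := hPb (mem_singleton_self p)
    have hne : a ≠ p := fun h => ha (h ▸ hpb)
    have h := lambda_eq hB {a, p} (by rw [card_pair hne]; norm_num)
    rw [card_pair hne, hα] at h
    norm_num [Nat.choose] at h
    have h' : ((blocks B).filter (fun b => ({a, p} : Finset α) ⊆ b)).card = 5 := by omega
    rw [← h', hF, filter_filter]
    congr 1
    ext c
    simp only [mem_filter, mem_blocks, singleton_subset_iff, insert_subset_iff]
  rw [sum_congr rfl h2, sum_const, card_powersetCard, hB.1 b hb] at h1
  norm_num [Nat.choose] at h1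
  -- `F` split by the size of the intersection
  have hsplit : ∀ c ∈ F, (c ∩ b).card = 0 ∨ (c ∩ b).card = 2 := by
    intro c hc
    rw [hF, mem_filter, mem_blocks] at hc
    rcases inter_cases hα hB hb hc.1 with h | h | h
    · exact Or.inl h
    · exact Or.inr h
    · subst h
      exact absurd hc.2 ha
  have h3 : ∑ c ∈ F, (c ∩ b).card = 2 * (F.filter (fun c => (c ∩ b).card = 2)).card := by
    rw [← sum_filter_add_sum_filter_not F (fun c => (c ∩ b).card = 2)]
    have : ∑ c ∈ F.filter (fun c => ¬ (c ∩ b).card = 2), (c ∩ b).card = 0 := by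
      apply sum_eq_zero
      intro c hc
      rw [mem_filter] at hc
      exact (hsplit c hc.1).resolve_right hc.2
    rw [this, add_zero, sum_congr rfl (g := fun _ => 2) (fun c hc => (mem_filter.1 hc).2), sum_const,
      smul_eq_mul, mul_comm]
  have h4 : F.card = (F.filter (fun c => (c ∩ b).card = 2)).card +
      (F.filter (fun c => ¬ (c ∩ b).card = 2)).card := (card_filter_add_card_filter_not _).symm
  have h5 : (blocks B).filter (fun c => a ∈ c ∧ Disjoint c b) = F.filter (fun c => ¬ (c ∩ b).card = 2) := by
    ext c
    simp only [hF, mem_filter, mem_blocks]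
    constructor
    · rintro ⟨h6, h7, h8⟩
      refine ⟨⟨h6, h7⟩, ?_⟩
      rw [disjoint_iff_inter_eq_empty.1 h8]
      simp
    · rintro ⟨⟨h6, h7⟩, h8⟩
      refine ⟨h6, h7, ?_⟩
      rw [disjoint_iff_inter_eq_empty, ← card_eq_zero]
      have := hsplit c (by rw [hF, mem_filter, mem_blocks]; exact ⟨h6, h7⟩)
      omega
  rw [h5]
  rw [h3] at h1
  omega

end counting

section blockGraph

variable {α : Type*} [Fintype α] {B : Set (Finset α)}

theorem blockGraph_adj_iff {b c : B} :
    (blockGraph B).Adj b c ↔ b ≠ c ∧ Disjoint (b : Finset α) (c : Finset α) := by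
  rw [blockGraph, SimpleGraph.fromRel_adj]
  constructor
  · rintro ⟨h1, h2 | h2⟩
    · exact ⟨h1, h2⟩
    · exact ⟨h1, h2.symm⟩
  · rintro ⟨h1, h2⟩
    exact ⟨h1, Or.inl h2⟩

/-- Cardinality of a filter on the subtype of blocks. -/
theorem card_filter_subtype [DecidableEq α] [Fintype B] (P : Finset α → Prop) [DecidablePred P] :
    (univ.filter (fun c : B => P c)).card = ((blocks B).filter P).card := by
  apply Finset.card_bij (fun (c : B) _ => (c : Finset α))
  · intro c hc
    rw [mem_filter] at hc ⊢
    exact ⟨mem_blocks.2 c.2, hc.2⟩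
  · intro a _ b _ h
    exact Subtype.ext h
  · intro c hc
    rw [mem_filter, mem_blocks] at hc
    exact ⟨⟨c, hc.1⟩, by simp [hc.2], rfl⟩

theorem card_commonNeighbors_eq {V : Type*} [Fintype V] (G : SimpleGraph V) [DecidableRel G.Adj]
    (v w : V) [DecidablePred fun x => G.Adj v x ∧ G.Adj w x] :
    Fintype.card (G.commonNeighbors v w) = (univ.filter (fun x => G.Adj v x ∧ G.Adj w x)).card := by
  rw [← Set.toFinset_card]
  congr 1
  ext x
  simp [SimpleGraph.mem_commonNeighbors]

/-- S(3,6,22): the block graph. -/
theorem block_srg (hα : Fintype.card α = 22) (hB : IsSteinerSystem 3 6 B) [Fintype B]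
    [DecidableRel (blockGraph B).Adj] : (blockGraph B).IsSRGWith 77 16 0 4 := by
  classical
  have hdisj : ∀ b c : Finset α, b ∈ B → c ∈ B → (Disjoint b c ↔ (c ∩ b).card = 0) := by
    intro b c _ _
    rw [card_eq_zero, inter_comm, disjoint_iff_inter_eq_empty]
  have hne : ∀ b : B, ¬ Disjoint (b : Finset α) (b : Finset α) := by
    intro b h
    rw [disjoint_self] at h
    have := hB.1 _ b.2
    rw [show (b : Finset α) = ∅ from h] at this
    simp at this
  refine ⟨?_, ?_, ?_, ?_⟩
  · have h := lambda_eq hB ∅ (by simp)
    simp only [card_empty, Nat.sub_zero, empty_subset, filter_true, hα] at h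
    norm_num [Nat.choose] at h
    have h' : (blocks B).card = 77 := by omega
    rw [Fintype.card_eq_nat_card, Nat.card_coe_set_eq, ncard_eq_card_blocks, h']
  · intro b
    rw [← SimpleGraph.card_neighborFinset_eq_degree, SimpleGraph.neighborFinset_eq_filter]
    have h1 : (univ.filter (fun c : B => (blockGraph B).Adj b c)) =
        univ.filter (fun c : B => (c.1 ∩ b.1).card = 0) := by
      ext c
      simp only [mem_filter, mem_univ, true_and, blockGraph_adj_iff]
      constructor
      · rintro ⟨_, h2⟩
        exact (hdisj _ _ b.2 c.2).1 h2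
      · intro h2
        have h3 : Disjoint (b : Finset α) (c : Finset α) := (hdisj _ _ b.2 c.2).2 h2
        refine ⟨?_, h3⟩
        rintro rfl
        exact hne _ h3
    rw [h1, card_filter_subtype (fun c => (c ∩ b.1).card = 0)]
    exact (nfib_3_6_22 hα hB b.2).1
  · intro b c hbc
    rw [card_commonNeighbors_eq, blockGraph_adj_iff] at *
    have h0 := nfib_union_disjoint hα hB b.2 c.2 (fun h => hbc.1 (Subtype.ext h)) hbc.2
    rw [nfib, card_eq_zero, filter_eq_empty_iff] at h0
    rw [card_eq_zero, filter_eq_empty_iff]
    rintro d - ⟨h1, h2⟩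
    rw [blockGraph_adj_iff] at h1 h2
    apply h0 (mem_blocks.2 d.2)
    have e1 : (d : Finset α) ∩ b = ∅ := disjoint_iff_inter_eq_empty.1 h1.2.symm
    have e2 : (d : Finset α) ∩ c = ∅ := disjoint_iff_inter_eq_empty.1 h2.2.symm
    rw [card_eq_zero, inter_union_distrib_left, e1, e2]
    simp
  · intro b c hbc hnadj
    have h2 : (b.1 ∩ c.1).card = 2 := by
      rcases inter_cases hα hB c.2 b.2 with h | h | h
      · exfalso
        apply hnadj
        rw [blockGraph_adj_iff]
        exact ⟨hbc, by rw [disjoint_iff_inter_eq_empty]; exact card_eq_zero.1 h⟩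
      · exact h
      · exact absurd (Subtype.ext h) hbc
    rw [card_commonNeighbors_eq]
    have h4 := nfib_union_two hα hB b.2 c.2 (fun h => hbc (Subtype.ext h)) h2
    rw [← h4, nfib, ← card_filter_subtype (fun d => (d ∩ (b.1 ∪ c.1)).card = 0)]
    congr 1
    ext d
    simp only [mem_filter, mem_univ, true_and, blockGraph_adj_iff]
    constructor
    · rintro ⟨⟨_, h5⟩, ⟨_, h6⟩⟩
      have e1 : (d : Finset α) ∩ b = ∅ := disjoint_iff_inter_eq_empty.1 h5.symm
      have e2 : (d : Finset α) ∩ c = ∅ := disjoint_iff_inter_eq_empty.1 h6.symm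
      rw [card_eq_zero, inter_union_distrib_left, e1, e2]
      simp
    · intro h5
      rw [card_eq_zero, inter_union_distrib_left, union_eq_empty] at h5
      have h6 : Disjoint (b : Finset α) (d : Finset α) := by
        rw [disjoint_iff_inter_eq_empty, inter_comm]; exact h5.1
      have h7 : Disjoint (c : Finset α) (d : Finset α) := by
        rw [disjoint_iff_inter_eq_empty, inter_comm]; exact h5.2
      refine ⟨⟨?_, h6⟩, ⟨?_, h7⟩⟩
      · rintro rfl
        exact hne _ h6
      · rintro rfl
        exact hne _ h7

end blockGraph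

section pointBlock

variable {α : Type*} {B : Set (Finset α)}

theorem pb_none_inl (a : α) : (pointBlockGraph B).Adj none (some (Sum.inl a)) := by
  rw [pointBlockGraph, SimpleGraph.fromRel_adj]
  exact ⟨by simp, Or.inl trivial⟩

theorem pb_none_inr (b : B) : ¬ (pointBlockGraph B).Adj none (some (Sum.inr b)) := by
  rw [pointBlockGraph, SimpleGraph.fromRel_adj]
  simp [pointBlockRel]

theorem pb_none_none : ¬ (pointBlockGraph B).Adj none none := by
  rw [pointBlockGraph, SimpleGraph.fromRel_adj]
  simp

theorem pb_inl_inl (a a' : α) : ¬ (pointBlockGraph B).Adj (some (Sum.inl a)) (some (Sum.inl a')) := by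
  rw [pointBlockGraph, SimpleGraph.fromRel_adj]
  simp [pointBlockRel]

theorem pb_inl_inr (a : α) (b : B) :
    (pointBlockGraph B).Adj (some (Sum.inl a)) (some (Sum.inr b)) ↔ a ∈ (b : Finset α) := by
  rw [pointBlockGraph, SimpleGraph.fromRel_adj]
  simp [pointBlockRel]

theorem pb_inr_inr (b c : B) :
    (pointBlockGraph B).Adj (some (Sum.inr b)) (some (Sum.inr c)) ↔
      b ≠ c ∧ Disjoint (b : Finset α) (c : Finset α) := by
  rw [pointBlockGraph, SimpleGraph.fromRel_adj]
  simp only [pointBlockRel, ne_eq, Option.some.injEq, Sum.inr.injEq]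
  constructor
  · rintro ⟨h1, h2 | h2⟩
    · exact ⟨h1, h2⟩
    · exact ⟨h1, h2.symm⟩
  · rintro ⟨h1, h2⟩
    exact ⟨h1, Or.inl h2⟩

theorem card_filter_option {γ δ : Type*} [Fintype γ] [Fintype δ] (P : Option (γ ⊕ δ) → Prop)
    [DecidablePred P] : (univ.filter P).card = (if P none then 1 else 0) +
      (univ.filter (fun a => P (some (Sum.inl a)))).card + (univ.filter (fun b => P (some (Sum.inr b)))).card := by
  rw [card_filter, Fintype.sum_option, Fintype.sum_sum_type, card_filter, card_filter, add_assoc]

end pointBlock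

section pointBlock2

variable {α : Type*} [Fintype α] {B : Set (Finset α)}

theorem block_card_77 (hα : Fintype.card α = 22) (hB : IsSteinerSystem 3 6 B) [Fintype B] :
    Fintype.card B = 77 := by
  classical
  have h := lambda_eq hB ∅ (by simp)
  simp only [card_empty, Nat.sub_zero, empty_subset, filter_true, hα] at h
  norm_num [Nat.choose] at h
  have h' : (blocks B).card = 77 := by omega
  rw [Fintype.card_eq_nat_card, Nat.card_coe_set_eq, ncard_eq_card_blocks, h']

theorem not_disjoint_self' (hB : IsSteinerSystem 3 6 B) (b : B) :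
    ¬ Disjoint (b : Finset α) (b : Finset α) := by
  intro h
  rw [disjoint_self] at h
  have := hB.1 _ b.2
  rw [show (b : Finset α) = ∅ from h] at this
  simp at this

/-- S(3,6,22): the graph on a vertex, the points and the blocks. -/
theorem pointBlock_srg (hα : Fintype.card α = 22) (hB : IsSteinerSystem 3 6 B) [Fintype B]
    [DecidableRel (pointBlockGraph B).Adj] : (pointBlockGraph B).IsSRGWith 100 22 0 6 := by
  classical
  have hdisj : ∀ b c : B, Disjoint (b : Finset α) (c : Finset α) ↔ ((c : Finset α) ∩ b).card = 0 := by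
    intro b c
    rw [card_eq_zero, inter_comm, disjoint_iff_inter_eq_empty]
  have hcB := block_card_77 hα hB
  refine ⟨?_, ?_, ?_, ?_⟩
  · rw [Fintype.card_option, Fintype.card_sum, hα, hcB]
  · intro v
    rw [← SimpleGraph.card_neighborFinset_eq_degree, SimpleGraph.neighborFinset_eq_filter,
      card_filter_option]
    rcases v with _ | a | b
    · simp only [pb_none_none, if_false, pb_none_inl, filter_true, pb_none_inr, filter_false,
        card_empty, card_univ, hα]
    · have h1 : (pointBlockGraph B).Adj (some (Sum.inl a)) none := (pb_none_inl a).symm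
      simp only [h1, if_true, pb_inl_inl, filter_false, card_empty, pb_inl_inr]
      have h2 := card_filter_subtype (B := B) (fun c => a ∈ c)
      rw [h2]
      have h3 := lambda_eq hB {a} (by simp)
      simp only [card_singleton, singleton_subset_iff, hα] at h3
      norm_num [Nat.choose] at h3
      omega
    · have h1 : ¬ (pointBlockGraph B).Adj (some (Sum.inr b)) none := fun h => pb_none_inr b h.symm
      have h2 : ∀ a, (pointBlockGraph B).Adj (some (Sum.inr b)) (some (Sum.inl a)) ↔ a ∈ (b : Finset α) :=
        fun a => by rw [SimpleGraph.adj_comm, pb_inl_inr]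
      simp only [h1, if_false, h2, pb_inr_inr]
      have h3 : (univ.filter (fun a => a ∈ (b : Finset α))).card = 6 := by
        rw [filter_mem_eq_inter, univ_inter, hB.1 _ b.2]
      have h4 : (univ.filter (fun c : B => b ≠ c ∧ Disjoint (b : Finset α) (c : Finset α))) =
          univ.filter (fun c : B => (c.1 ∩ b.1).card = 0) := by
        ext c
        simp only [mem_filter, mem_univ, true_and]
        constructor
        · rintro ⟨_, h2⟩
          exact (hdisj b c).1 h2
        · intro h2
          have h5 := (hdisj b c).2 h2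
          refine ⟨?_, h5⟩
          rintro rfl
          exact not_disjoint_self' hB _ h5
      rw [h3, h4, card_filter_subtype (fun c => (c ∩ b.1).card = 0)]
      have h5 := (nfib_3_6_22 hα hB b.2).1
      rw [nfib] at h5
      omega
  · -- triangle free
    have tri0 : ∀ w x, (pointBlockGraph B).Adj none w → (pointBlockGraph B).Adj none x →
        (pointBlockGraph B).Adj w x → False := by
      intro w x hw hx hwx
      rcases w with _ | a | b
      · exact pb_none_none hw
      · rcases x with _ | a' | b'
        · exact pb_none_none hx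
        · exact pb_inl_inl _ _ hwx
        · exact pb_none_inr _ hx
      · exact pb_none_inr _ hw
    have tri1 : ∀ (a : α) w x, (pointBlockGraph B).Adj (some (Sum.inl a)) w →
        (pointBlockGraph B).Adj (some (Sum.inl a)) x → (pointBlockGraph B).Adj w x → False := by
      intro a w x hw hx hwx
      rcases w with _ | a' | b
      · exact tri0 _ _ hw.symm hwx hx
      · exact pb_inl_inl _ _ hw
      · rcases x with _ | a' | c
        · exact tri0 _ _ hx.symm hwx.symm hw
        · exact pb_inl_inl _ _ hx
        · have h1 := (pb_inl_inr _ _).1 hw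
          have h2 := (pb_inl_inr _ _).1 hx
          have h3 := ((pb_inr_inr _ _).1 hwx).2
          exact Finset.disjoint_left.1 h3 h1 h2
    have tri2 : ∀ (b c d : B), (pointBlockGraph B).Adj (some (Sum.inr b)) (some (Sum.inr c)) →
        (pointBlockGraph B).Adj (some (Sum.inr b)) (some (Sum.inr d)) →
        (pointBlockGraph B).Adj (some (Sum.inr c)) (some (Sum.inr d)) → False := by
      intro b c d h1 h2 h3
      rw [pb_inr_inr] at h1 h2 h3
      have h0 := nfib_union_disjoint hα hB b.2 c.2 (fun h => h1.1 (Subtype.ext h)) h1.2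
      rw [nfib, card_eq_zero, filter_eq_empty_iff] at h0
      apply h0 (mem_blocks.2 d.2)
      have e1 : (d : Finset α) ∩ b = ∅ := disjoint_iff_inter_eq_empty.1 h2.2.symm
      have e2 : (d : Finset α) ∩ c = ∅ := disjoint_iff_inter_eq_empty.1 h3.2.symm
      rw [card_eq_zero, inter_union_distrib_left, e1, e2]
      simp
    intro v w hvw
    rw [card_commonNeighbors_eq, card_eq_zero, filter_eq_empty_iff]
    rintro x - ⟨hvx, hwx⟩
    rcases v with _ | a | b
    · exact tri0 _ _ hvw hvx hwx
    · exact tri1 _ _ _ hvw hvx hwx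
    · rcases w with _ | a' | c
      · exact pb_none_inr _ hvw.symm
      · exact tri1 _ _ _ hvw.symm hwx hvx
      · rcases x with _ | a'' | d
        · exact pb_none_inr _ hvx.symm
        · exact tri1 _ _ _ hvx.symm hwx.symm hvw
        · exact tri2 _ _ _ hvw hvx hwx
  · have sym : ∀ v w, (univ.filter (fun x => (pointBlockGraph B).Adj v x ∧ (pointBlockGraph B).Adj w x)).card =
        (univ.filter (fun x => (pointBlockGraph B).Adj w x ∧ (pointBlockGraph B).Adj v x)).card := by
      intro v w
      congr 1
      ext x
      simp [and_comm]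
    have c1 : ∀ b : B, (univ.filter (fun x => (pointBlockGraph B).Adj none x ∧
        (pointBlockGraph B).Adj (some (Sum.inr b)) x)).card = 6 := by
      intro b
      rw [card_filter_option]
      have h1 : ∀ a, (pointBlockGraph B).Adj (some (Sum.inr b)) (some (Sum.inl a)) ↔ a ∈ (b : Finset α) :=
        fun a => by rw [SimpleGraph.adj_comm, pb_inl_inr]
      simp only [pb_none_none, false_and, if_false, pb_none_inl, true_and, h1, pb_none_inr, filter_false,
        card_empty]
      rw [filter_mem_eq_inter, univ_inter, hB.1 _ b.2]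
    have c2 : ∀ a a' : α, a ≠ a' → (univ.filter (fun x => (pointBlockGraph B).Adj (some (Sum.inl a)) x ∧
        (pointBlockGraph B).Adj (some (Sum.inl a')) x)).card = 6 := by
      intro a a' hne
      rw [card_filter_option]
      have h1 : ∀ a : α, (pointBlockGraph B).Adj (some (Sum.inl a)) none := fun a => (pb_none_inl a).symm
      simp only [h1, and_self, if_true, pb_inl_inl, false_and, filter_false, card_empty, pb_inl_inr]
      have h2 := card_filter_subtype (B := B) (fun c => a ∈ c ∧ a' ∈ c)
      rw [h2]
      have h3 := lambda_eq hB {a, a'} (by rw [card_pair hne]; norm_num)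
      rw [card_pair hne, hα] at h3
      norm_num [Nat.choose] at h3
      have h4 : (blocks B).filter (fun c => a ∈ c ∧ a' ∈ c) = (blocks B).filter (fun c => ({a, a'} : Finset α) ⊆ c) := by
        ext c
        simp only [mem_filter, insert_subset_iff, singleton_subset_iff]
      rw [h4]
      omega
    have c3 : ∀ (a : α) (b : B), a ∉ (b : Finset α) → (univ.filter (fun x => (pointBlockGraph B).Adj (some (Sum.inl a)) x ∧
        (pointBlockGraph B).Adj (some (Sum.inr b)) x)).card = 6 := by
      intro a b hab
      rw [card_filter_option]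
      have h1 : ¬ (pointBlockGraph B).Adj (some (Sum.inr b)) none := fun h => pb_none_inr b h.symm
      simp only [h1, and_false, if_false, pb_inl_inl, false_and, filter_false, card_empty, pb_inl_inr, pb_inr_inr]
      have h2 : (univ.filter (fun c : B => a ∈ (c : Finset α) ∧ b ≠ c ∧ Disjoint (b : Finset α) (c : Finset α))) =
          univ.filter (fun c : B => a ∈ (c : Finset α) ∧ Disjoint (c : Finset α) (b : Finset α)) := by
        ext c
        simp only [mem_filter, mem_univ, true_and]
        constructor
        · rintro ⟨h3, _, h4⟩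
          exact ⟨h3, h4.symm⟩
        · rintro ⟨h3, h4⟩
          refine ⟨h3, ?_, h4.symm⟩
          rintro rfl
          exact hab h3
      rw [h2, card_filter_subtype (fun c => a ∈ c ∧ Disjoint c (b : Finset α)), card_through_disjoint hα hB b.2 hab]
    have c4 : ∀ (b c : B), b ≠ c → ¬ Disjoint (b : Finset α) (c : Finset α) →
        (univ.filter (fun x => (pointBlockGraph B).Adj (some (Sum.inr b)) x ∧
        (pointBlockGraph B).Adj (some (Sum.inr c)) x)).card = 6 := by
      intro b c hbc hnd
      have h2 : (b.1 ∩ c.1).card = 2 := by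
        rcases inter_cases hα hB c.2 b.2 with h | h | h
        · exact absurd (by rw [disjoint_iff_inter_eq_empty]; exact card_eq_zero.1 h) hnd
        · exact h
        · exact absurd (Subtype.ext h) hbc
      rw [card_filter_option]
      have h1 : ∀ b : B, ¬ (pointBlockGraph B).Adj (some (Sum.inr b)) none := fun b h => pb_none_inr b h.symm
      have h3 : ∀ (b : B) (a : α), (pointBlockGraph B).Adj (some (Sum.inr b)) (some (Sum.inl a)) ↔ a ∈ (b : Finset α) :=
        fun b a => by rw [SimpleGraph.adj_comm, pb_inl_inr]
      simp only [h1, and_self, if_false, h3, pb_inr_inr]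
      have h4 : (univ.filter (fun a => a ∈ (b : Finset α) ∧ a ∈ (c : Finset α))).card = 2 := by
        rw [← h2]
        congr 1
        ext a
        simp
      have h5 := nfib_union_two hα hB b.2 c.2 (fun h => hbc (Subtype.ext h)) h2
      have h6 : (univ.filter (fun d : B => (b ≠ d ∧ Disjoint (b : Finset α) (d : Finset α)) ∧
          (c ≠ d ∧ Disjoint (c : Finset α) (d : Finset α)))).card = 4 := by
        rw [← h5, nfib, ← card_filter_subtype (fun d => (d ∩ (b.1 ∪ c.1)).card = 0)]
        congr 1
        ext d
        simp only [mem_filter, mem_univ, true_and]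
        constructor
        · rintro ⟨⟨_, h7⟩, ⟨_, h8⟩⟩
          have e1 : (d : Finset α) ∩ b = ∅ := disjoint_iff_inter_eq_empty.1 h7.symm
          have e2 : (d : Finset α) ∩ c = ∅ := disjoint_iff_inter_eq_empty.1 h8.symm
          rw [card_eq_zero, inter_union_distrib_left, e1, e2]
          simp
        · intro h7
          rw [card_eq_zero, inter_union_distrib_left, union_eq_empty] at h7
          have h8 : Disjoint (b : Finset α) (d : Finset α) := by
            rw [disjoint_iff_inter_eq_empty, inter_comm]; exact h7.1
          have h9 : Disjoint (c : Finset α) (d : Finset α) := by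
            rw [disjoint_iff_inter_eq_empty, inter_comm]; exact h7.2
          refine ⟨⟨?_, h8⟩, ⟨?_, h9⟩⟩
          · rintro rfl
            exact not_disjoint_self' hB _ h8
          · rintro rfl
            exact not_disjoint_self' hB _ h9
      rw [h4, h6]
    intro v w hne hna
    rw [card_commonNeighbors_eq]
    rcases v with _ | a | b <;> rcases w with _ | a' | b'
    · exact absurd rfl hne
    · exact absurd (pb_none_inl _) hna
    · exact c1 _
    · exact absurd (pb_none_inl _).symm hna
    · exact c2 _ _ (fun h => hne (by rw [h]))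
    · exact c3 _ _ (fun h => hna ((pb_inl_inr _ _).2 h))
    · rw [sym]
      exact c1 _
    · rw [sym]
      exact c3 _ _ (fun h => hna ((pb_inl_inr _ _).2 h).symm)
    · exact c4 _ _ (fun h => hne (by rw [h])) (fun h => hna ((pb_inr_inr _ _).2 ⟨fun h' => hne (by rw [h']), h⟩))

end pointBlock2

end Cfsg.Agent.Lib.Steiner
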