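import Cfsg.Agent.Lib.Steiner.PBAut
import Cfsg.Agent.Lib.Compute.Simple2
import Cfsg.Prelude.Def_Sporadic

/-!
# From explicit automorphisms of the point-block graph to a simple group of order 44352000
-/

set_option autoImplicit false
set_option linter.unusedSectionVars false

namespace Cfsg.Agent.Lib.Steiner

open Cfsg Equiv MulAction

variable {α : Type*} [Fintype α] [DecidableEq α] {B : Set (Finset α)}

theorem sign_pbHat_of_simple [Fintype (Option (α ⊕ B))] [DecidableEq (Option (α ⊕ B))]
    (H : Subgroup (setSystemAut B)) (hs : IsSimpleGroup H) (hc : 2 < Nat.card H) (σ : H) :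
    Perm.sign (pbHat σ.1) = 1 := by
  let φ : H →* ℤˣ := Perm.sign.comp (pbHat.comp H.subtype)
  rcases hs.eq_bot_or_eq_top_of_normal φ.ker (MonoidHom.normal_ker φ) with h | h
  · exfalso
    have hinj : Function.Injective φ := (MonoidHom.ker_eq_bot_iff φ).1 h
    have h1 := Nat.card_le_card_of_injective φ hinj
    have h2 : Nat.card ℤˣ = 2 := by
      rw [Nat.card_eq_fintype_card]; decide
    omega
  · have h1 : σ ∈ φ.ker := by rw [h]; trivial
    exact h1

/-- The main abstract step. -/
theorem exists_isHS_of_data [Fintype (Option (α ⊕ B))] [DecidableEq (Option (α ⊕ B))]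
    (hcardV : Nat.card (Option (α ⊕ B)) = 100)
    (hH : ∃ H : Subgroup (setSystemAut B), H.index = 2 ∧ IsM22 H)
    (htrans : ∀ x : Option (α ⊕ B), ∃ f ∈ pbAut B, f none = x)
    {tau c : Perm (Option (α ⊕ B))} (htau : tau ∈ pbAut B) (htau0 : tau none = none)
    (htausign : Perm.sign tau = -1) (hc : c ∈ pbAut B) (hc11 : c ^ 11 = 1) (hc0 : c none = none)
    (hcfix : ∀ y, c y = y → y = none) :
    ∃ H : Subgroup (pointBlockGraph B ≃g pointBlockGraph B), IsHS H := by
  classical
  obtain ⟨H, hHi, hHs, hHc⟩ := hH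
  let S : Subgroup (Perm (Option (α ⊕ B))) := pbAut B ⊓ Perm.sign.ker
  have hmemS : ∀ {f}, f ∈ S ↔ f ∈ pbAut B ∧ Perm.sign f = 1 := fun {f} => Iff.rfl
  -- transitivity
  have hT : IsPretransitive S (Option (α ⊕ B)) := by
    rw [isPretransitive_iff_base (none : Option (α ⊕ B))]
    intro x
    obtain ⟨f, hf, hfx⟩ := htrans x
    rcases Int.units_eq_one_or (Perm.sign f) with h | h
    · exact ⟨⟨f, hmemS.2 ⟨hf, h⟩⟩, hfx⟩
    · refine ⟨⟨f * tau, hmemS.2 ⟨(pbAut B).mul_mem hf htau, ?_⟩⟩, ?_⟩
      · rw [map_mul, h, htausign]; rfl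
      · show (f * tau) none = x
        rw [Perm.mul_apply, htau0, hfx]
  -- the stabiliser
  have hsgn := sign_pbHat_of_simple H hHs (by rw [hHc]; norm_num)
  obtain ⟨στ, hστ⟩ := exists_pbHat_eq htau htau0
  let T := stabilizer S (none : Option (α ⊕ B))
  let e0 : H → T := fun σ => ⟨⟨pbHat σ.1, hmemS.2 ⟨pbHat_mem _, hsgn σ⟩⟩, rfl⟩
  have he0mul : ∀ x y, e0 (x * y) = e0 x * e0 y := by
    intro x y
    apply Subtype.ext
    apply Subtype.ext
    exact map_mul pbHat x.1 y.1
  have he0bij : Function.Bijective e0 := by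
    constructor
    · intro x y hxy
      have h1 : pbHat x.1 = pbHat y.1 := congrArg (fun z : T => ((z : S) : Perm (Option (α ⊕ B)))) hxy
      exact Subtype.ext (pbHat_injective h1)
    · rintro ⟨⟨t, ht⟩, ht0⟩
      have ht0' : t none = none := ht0
      obtain ⟨σ, hσ⟩ := exists_pbHat_eq ht.1 ht0'
      have hσH : σ ∈ H := by
        by_contra hn
        have hτn : στ ∉ H := by
          intro h1
          have h2 := hsgn ⟨στ, h1⟩
          have h3 : Perm.sign (pbHat στ) = 1 := h2
          rw [hστ, htausign] at h3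
          exact absurd h3 (by decide)
        have h1 : σ * στ ∈ H := (Subgroup.mul_mem_iff_of_index_two hHi).2
          ⟨fun h => absurd h hn, fun h => absurd h hτn⟩
        have h2 : Perm.sign (pbHat (σ * στ)) = 1 := hsgn ⟨_, h1⟩
        rw [map_mul, map_mul, hσ, hστ, htausign] at h2
        have h3 : Perm.sign t = 1 := ht.2
        rw [h3] at h2
        exact absurd h2 (by decide)
      refine ⟨⟨σ, hσH⟩, ?_⟩
      apply Subtype.ext
      apply Subtype.ext
      exact hσ
  let e : H ≃* T := MulEquiv.ofBijective (MulHom.mk e0 he0mul) he0bij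
  have hTs : IsSimpleGroup T := by
    haveI := hHs
    exact e.symm.isSimpleGroup
  have hTc : Nat.card T = 443520 := (Nat.card_congr e.toEquiv).symm.trans hHc
  -- the element `c`
  have hcsign : Perm.sign c = 1 := by
    have h1 : (Perm.sign c) ^ 11 = 1 := by rw [← map_pow, hc11, map_one]
    rcases Int.units_eq_one_or (Perm.sign c) with h | h
    · exact h
    · rw [h] at h1
      exact absurd h1 (by decide)
  let c' : S := ⟨c, hmemS.2 ⟨hc, hcsign⟩⟩
  have hP : IsPreprimitive S (Option (α ⊕ B)) := by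
    refine Cfsg.Agent.Lib.Compute.isPreprimitive_of_fixing_element (none : Option (α ⊕ B)) c'
      (p := 11) (by norm_num) (Subtype.ext hc11) hc0 (fun y hy => hcfix y hy) ?_
    intro d hd hd2
    rw [hcardV] at hd ⊢
    have hd3 : d ≤ 100 := Nat.le_of_dvd (by norm_num) hd
    interval_cases d <;> omega
  have hne : Nontrivial S := by
    refine ⟨⟨c', 1, fun h => ?_⟩⟩
    have h1 : c = 1 := congrArg Subtype.val h
    have h2 : ∀ y : Option (α ⊕ B), y = none := fun y => hcfix y (by rw [h1]; rfl)
    have h3 : Subsingleton (Option (α ⊕ B)) := ⟨fun a b => by rw [h2 a, h2 b]⟩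
    have h4 := Nat.card_of_subsingleton (none : Option (α ⊕ B))
    omega
  have hSs : IsSimpleGroup S :=
    Cfsg.Agent.Lib.Compute.isSimpleGroup_of_prim_simple_stabilizer (G := S) (X := Option (α ⊕ B))
      (none : Option (α ⊕ B)) hTs (p := 5) (a := 2) (m := 4) (by norm_num) (by rw [hcardV]; norm_num)
      (by norm_num) (by norm_num) (by norm_num) (by
        intro d hd hd2
        have hd3 : d ≤ 4 := Nat.le_of_dvd (by norm_num) hd
        interval_cases d <;> omega)
  have hSc : Nat.card S = 44352000 := by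
    have h1 := T.card_mul_index
    rw [index_stabilizer, orbit_eq_univ, Set.ncard_univ, hcardV, hTc] at h1
    rw [← h1]
  -- back to graph isomorphisms
  let ι : (pointBlockGraph B ≃g pointBlockGraph B) →* Perm (Option (α ⊕ B)) :=
    { toFun := fun f => f.toEquiv
      map_one' := rfl
      map_mul' := fun _ _ => rfl }
  refine ⟨S.comap ι, ?_⟩
  let ψ : ↥(S.comap ι) ≃* S :=
    { toFun := fun x => ⟨ι x.1, x.2⟩
      invFun := fun y => ⟨⟨y.1, fun {a b} => (hmemS.1 y.2).1 a b⟩, y.2⟩
      left_inv := fun x => Subtype.ext (RelIso.ext fun _ => rfl)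
      right_inv := fun y => Subtype.ext rfl
      map_mul' := fun _ _ => rfl }
  exact ⟨haveI := hSs; ψ.isSimpleGroup, (Nat.card_congr ψ.toEquiv).trans hSc⟩

end Cfsg.Agent.Lib.Steiner
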