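import Cfsg.Agent.Lib.Compute.PermCode
import Cfsg.Agent.Lib.Steiner.Count

/-!
# Uniqueness of small Steiner systems by verified search

`HasStd n B blocks0`: some enumeration of the points makes all the masks `blocks0` blocks of `B`.
`Holds n B blocks0 T`: for every enumeration making all masks in `T` blocks, `HasStd` holds.
The rules: `holds_branch` (case distinction on the block through a `t`-set, with relabelling)
and `holds_forced` (blocks forced by the ones known).
-/

set_option autoImplicit false

namespace Cfsg.Agent.Lib.Steiner

open Cfsg Cfsg.Agent.Lib.Compute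

/-! ### Fast popcount -/

/-- Bits below `a + b` in terms of low and high parts. -/
theorem popAux_split (x a b : ℕ) :
    Enc.popAux x (a + b) = Enc.popAux (x % 2 ^ a) a + Enc.popAux (x / 2 ^ a) b := by
  induction b with
  | zero =>
    simp only [Nat.add_zero]
    rw [Enc.popAux_eq, Enc.popAux_eq]
    have h0 : Enc.popAux (x / 2 ^ a) 0 = 0 := rfl
    rw [h0, Nat.add_zero]
    congr 1
    apply Finset.filter_congr
    intro i hi
    rw [Finset.mem_range] at hi
    simp [Nat.testBit_mod_two_pow, hi]
  | succ b ih =>
    rw [← Nat.add_assoc, Enc.popAux_succ, ih, Enc.popAux_succ]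
    show Nat.land (Nat.shiftRight x (a + b)) 1 + _ = _ + (Nat.land (Nat.shiftRight (x / 2 ^ a) b) 1 + _)
    rw [land_shiftRight_one, land_shiftRight_one, Nat.div_div_eq_div_mul, ← Nat.pow_add]
    omega

theorem popAux_zero (b : ℕ) : Enc.popAux 0 b = 0 := by
  induction b with
  | zero => rfl
  | succ b ih =>
    rw [Enc.popAux_succ, ih]
    show Nat.land (Nat.shiftRight 0 b) 1 + 0 = 0
    rw [land_shiftRight_one]
    simp

theorem popAux_high {m n N : ℕ} (hm : m < 2 ^ n) (hn : n ≤ N) : Enc.popAux m N = Enc.popAux m n := by
  obtain ⟨b, rfl⟩ := Nat.exists_eq_add_of_le hn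
  rw [popAux_split, Nat.mod_eq_of_lt hm, Nat.div_eq_of_lt hm, popAux_zero, Nat.add_zero]

/-- The number of bits of the numbers below `4096`, packed in 4 bits each. -/
def pop12 : ℕ := 9468097519590795858128201958878640824431513186823639359780363199495358934600706469835741870383245822329163504016449610535150323040077112103394710211955433969764837129830441909837245668632711218078766285167720779554583182417721855762725207679941501957608484808053941938190797511398111767210756300463249253360751388781916654871601423215181006049346572435935920196543045363542046215508631825698644307274758519695015227775501120114125770532080103143454799193646010070607704034891717374835231260780875791393441606013569185846192842373566917781558043697769666833414617693589408394199407537273489293412870341766947194464136746271844487415393012672297540278908966984443412455412386525309960312831561351648997932684149253015193759905747538448059522049200637780863925065860226000970654564880984263368709026329969186177879704864439446299645002820627341803770979884002055273432080235277333077882512319872928077833376710667271869115856323319560544031021463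3284670554299177836772126875437885640215960355994273205827945206071571746752382162602121059061654673179472312012261579172516494439246246158054742337776823924464667957426039432008887217667935029206569151389381870586537548665565578527541047782788886611668126183459751730475697084676505452762196337343050924905702833265143797299346156472876587020034582505243008648722540414170456902624268563993082495968172976442335535065770309769276652054556309845670087889955880757694705955986644385306789461223199315803400721075912386834103415373946040516995112927659980834884531676021426666076306733344042465760576895795786051816167216079542866556263121811696290461935587128368774413802802614682335640069303434446354971236008978444213475060640385667215622470565523146027777566260859392304329368985158988566133601026857285660093886851817186797731457145155282627493233397917969568788814540007147855160412009897163198817071635247536862858852641803433598747192669981480997418788911921989478977987382730408474370433646360128996318316111948494870016039413222277337717511358583995344069911927043675309783988831966223192430696933720346816660064934691380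6739352411840356170832633466015731290726910343499547170969055548392103329677866112416768716593490204047392709170299026863136687410349008142100923041165750938597035905803248839753267642396409952568360295137667395503692259795824507330835117977048162612817821117846701759717848221356110208422702153858424361011875445536238853979144012881615154425026866813994631447675050228225626956189242936967133361861240943285245627554345480163860082090608109439378359875521460209372546182489754745669981958935553674308678207119272102595852657245295014174994105869131928457467546511814346715644338683262160868854225146676594654095148477528773779434710328802490440706711164053402870831596618041623867588579875954882135550866833421663141567078619928202827898041045475000912302486414898960420537396221563395790540257181065776061439637744242169075517625033534103350981728735165710926432637838369711449214611162827564121608755901581387546877839846337319280245597680756208083242936672723757418597391520136581965804087401843708742301850690417100828172702407331403142406827902513932157997888840827547778103609111169212396193137818770502463416033057030830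1887128076977652160119584976305005150949717399315943367465949162981449953191913656630762080445515710852034939506850001458004853929738124889386866606745707785817250754009986089544216949039053112754646087826513390616906757120571561591042548741303923849838026903562311856806527580874206851774283035147639457872308504059927925743137584719697828370688880944958699401957166516670602351844020553156782190552921037864898527318787313332197698068812138620109606573683995526447628061756290340761981572009854894466356419973032994999726716600258557448348738632964963922830092263003626144285878311500526541554024284783716788137049335943389472384584973325773230195312271021697842310805528749654682153028955070371394987123088920702900231188379946824534611668558483890042560369119099668562789458085988440143017020039190832144001363385511849928043155579657837063255794473866402633904553138325037312550242571977933653705718566333477554625837795028543124253361714653966896145799461805373440847919683002591104873239100872595658589910051744013263013942546785460964784010647787239293160445682866280815843726014949860289946802788575150154363710408413404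52286177780253395075460327469037920967476178586012534840203765961111240237153264143061817544525027297405248663488999419843794388397677151155694729322667643139191999737140871552792735169821737217110419863523605621782432884486040769601712045561199578357590787847539468261345316627228945672457755197373831842427040187254335644329876944909207177401735485367983855698417870105720242418356036819924543371083836598509767970598942781282370781589731629808787587907437184317639047666814689059908096795437135054143698568512594467168863020597936991317344104799009305512585135143434747014401845397611986987228668176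

/-- Fast popcount of a number below `2 ^ 24`. -/
noncomputable def fpop (x : ℕ) : ℕ :=
  Nat.add (pget 4 15 pop12 (Nat.land x 4095)) (pget 4 15 pop12 (Nat.shiftRight x 12))

theorem pop12_check :
    allBelow (fun i => Nat.beq (pget 4 15 pop12 i) (Enc.popAux i 12)) 4096 = true := by
  decide +kernel

theorem fpop_eq {x : ℕ} (hx : x < 2 ^ 24) : fpop x = Enc.popAux x 24 := by
  have h1 := popAux_split x 12 12
  have h2 : Nat.land x 4095 = x % 2 ^ 12 := Nat.and_two_pow_sub_one_eq_mod x 12
  have h3 : Nat.shiftRight x 12 = x / 2 ^ 12 := Nat.shiftRight_eq_div_pow x 12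
  have hlow : x % 2 ^ 12 < 4096 := Nat.mod_lt _ (by norm_num)
  have hhigh : x / 2 ^ 12 < 4096 := Nat.div_lt_of_lt_mul (by simpa using hx)
  have t1 := Nat.eq_of_beq_eq_true ((allBelow_iff _ _).1 pop12_check _ hlow)
  have t2 := Nat.eq_of_beq_eq_true ((allBelow_iff _ _).1 pop12_check _ hhigh)
  show Nat.add (pget 4 15 pop12 (Nat.land x 4095)) (pget 4 15 pop12 (Nat.shiftRight x 12)) = _
  rw [h2, h3, t1, t2]
  exact h1.symm

/-! ### Loops on lists -/

/-- Lazy conjunction on a list. -/
noncomputable def allL {β : Type*} (f : β → Bool) (l : List β) : Bool :=
  List.rec true (fun a _ ih => bcond (f a) ih false) l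

/-- Lazy disjunction on a list. -/
noncomputable def anyL {β : Type*} (f : β → Bool) (l : List β) : Bool :=
  List.rec false (fun a _ ih => bcond (f a) true ih) l

theorem allL_iff {β : Type*} {f : β → Bool} {l : List β} : allL f l = true ↔ ∀ a ∈ l, f a = true := by
  induction l with
  | nil => simp [allL]
  | cons a l ih =>
    have h1 : allL f (a :: l) = bcond (f a) (allL f l) false := rfl
    rw [h1]
    cases h : f a
    · simp [h]
    · simp [h, ih]

theorem anyL_iff {β : Type*} {f : β → Bool} {l : List β} : anyL f l = true ↔ ∃ a ∈ l, f a = true := by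
  induction l with
  | nil => simp [anyL]
  | cons a l ih =>
    have h1 : anyL f (a :: l) = bcond (f a) true (anyL f l) := rfl
    rw [h1]
    cases h : f a
    · simp [h, ih]
    · simp [h]

/-! ### Strictly increasing lists -/

/-- The list is strictly increasing and above `p`. -/
noncomputable def ascFrom (l : List ℕ) : ℕ → Bool :=
  List.rec (fun _ => true) (fun a _ ih p => bcond (Nat.blt p a) (ih a) false) l

theorem ascFrom_spec (l : List ℕ) : ∀ p, ascFrom l p = true → l.Pairwise (· < ·) ∧ ∀ x ∈ l, p < x := by
  induction l with
  | nil => intro p _; simp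
  | cons a l ih =>
    intro p h
    have h1 : ascFrom (a :: l) p = bcond (Nat.blt p a) (ascFrom l a) false := rfl
    rw [h1] at h
    cases h2 : Nat.blt p a
    · rw [h2] at h; simp at h
    · rw [h2, bcond_true] at h
      obtain ⟨h3, h4⟩ := ih a h
      have hpa : p < a := by simpa using h2
      refine ⟨List.pairwise_cons.2 ⟨h4, h3⟩, ?_⟩
      intro x hx
      rcases List.mem_cons.1 hx with rfl | hx
      · exact hpa
      · exact lt_trans hpa (h4 x hx)

theorem nodup_of_ascFrom {l : List ℕ} {p : ℕ} (h : ascFrom l p = true) : l.Nodup :=
  (ascFrom_spec l p h).1.imp (fun h => ne_of_lt h)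

/-! ### Enumeration of the masks of a given size above a given one -/

/-- Test of `f` on all `acc ||| M`, where `M` has `r` bits below `i`, disjoint from `s`. -/
noncomputable def enumM (s : ℕ) (f : ℕ → Bool) (i : ℕ) : ℕ → ℕ → Bool :=
  Nat.rec (fun r acc => bcond (Nat.beq r 0) (f acc) true)
    (fun i ih r acc => bcond (Nat.beq r 0) (f acc)
      (bcond (tb s i) (ih r acc)
        (bcond (ih (Nat.pred r) (Nat.lor acc (Nat.shiftLeft 1 i))) (ih r acc) false))) i

theorem enumM_spec (s : ℕ) (f : ℕ → Bool) (i : ℕ) :
    ∀ (r acc : ℕ), enumM s f i r acc = true → ∀ M, M < 2 ^ i → (∀ x, M.testBit x = true → s.testBit x = false) →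
      Enc.popAux M i = r → f (acc ||| M) = true := by
  induction i with
  | zero =>
    intro r acc h M hM _ hp
    have hM0 : M = 0 := by simpa using hM
    subst hM0
    have hr : r = 0 := by rw [← hp]; rfl
    subst hr
    have h' : enumM s f 0 0 acc = f acc := rfl
    rw [h'] at h
    simpa using h
  | succ i ih =>
    intro r acc h M hM hd hp
    have hstep : enumM s f (i + 1) r acc = bcond (Nat.beq r 0) (f acc)
      (bcond (tb s i) (enumM s f i r acc)
        (bcond (enumM s f i (Nat.pred r) (Nat.lor acc (Nat.shiftLeft 1 i))) (enumM s f i r acc) false)) := rfl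
    rw [hstep] at h
    have hM' : M % 2 ^ i < 2 ^ i := Nat.mod_lt _ (by positivity)
    have hbit : M = M % 2 ^ i + 2 ^ i * (M / 2 ^ i) := (Nat.mod_add_div M (2 ^ i)).symm
    have hsucc : Enc.popAux M (i + 1) = Nat.land (Nat.shiftRight M i) 1 + Enc.popAux M i := rfl
    have hlow : Enc.popAux (M % 2 ^ i) i = Enc.popAux M i := by
      have h3 := popAux_split M i 0
      have h4 : Enc.popAux (M / 2 ^ i) 0 = 0 := rfl
      rw [Nat.add_zero, h4, Nat.add_zero] at h3
      exact h3.symm
    have hdlow : ∀ x, (M % 2 ^ i).testBit x = true → s.testBit x = false := by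
      intro x hx
      rw [Nat.testBit_mod_two_pow] at hx
      simp only [Bool.and_eq_true, decide_eq_true_eq] at hx
      exact hd x hx.2
    cases hr : Nat.beq r 0
    · rw [hr, bcond_false] at h
      by_cases hMi : M.testBit i = true
      · -- `M` has the bit `i`
        have hsi : tb s i = false := by rw [tb_eq]; exact hd i hMi
        rw [hsi, bcond_false] at h
        cases h1 : enumM s f i (Nat.pred r) (Nat.lor acc (Nat.shiftLeft 1 i))
        · rw [h1] at h; simp at h
        · have h2 := ih _ _ h1 (M % 2 ^ i) hM' hdlow (by
            rw [hlow]
            rw [hsucc, land_shiftRight_one] at hp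
            have h5 : M / 2 ^ i % 2 = 1 := by
              rw [Nat.testBit_eq_decide_div_mod_eq] at hMi
              simpa using hMi
            rw [h5] at hp
            rw [Nat.pred_eq_sub_one]
            omega)
          have heq : Nat.lor acc (Nat.shiftLeft 1 i) ||| M % 2 ^ i = acc ||| M := by
            apply Nat.eq_of_testBit_eq
            intro x
            show ((acc ||| (1 <<< i)) ||| M % 2 ^ i).testBit x = _
            simp only [Nat.testBit_or, Nat.one_shiftLeft, Nat.testBit_two_pow, Nat.testBit_mod_two_pow]
            by_cases hxi : x < i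
            · have : i ≠ x := by omega
              simp [hxi, this]
            · by_cases hxe : i = x
              · subst hxe
                simp [hMi]
              · have hxgt : i < x := by omega
                have hM2 : M.testBit x = false := by
                  apply Nat.testBit_lt_two_pow
                  exact lt_of_lt_of_le hM (Nat.pow_le_pow_right (by norm_num) hxgt)
                simp [hxi, hxe, hM2]
          rw [← heq]
          exact h2
      · -- `M` does not have the bit `i`
        have hMi' : M.testBit i = false := by simpa using hMi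
        have hh : enumM s f i r acc = true := by
          cases hsi : tb s i
          · rw [hsi, bcond_false] at h
            cases h1 : enumM s f i (Nat.pred r) (Nat.lor acc (Nat.shiftLeft 1 i))
            · rw [h1] at h; simp at h
            · rwa [h1, bcond_true] at h
          · rwa [hsi, bcond_true] at h
        have h5 : M / 2 ^ i % 2 = 0 := by
          rw [Nat.testBit_eq_decide_div_mod_eq] at hMi'
          have := Nat.mod_two_eq_zero_or_one (M / 2 ^ i)
          rcases this with h6 | h6
          · exact h6
          · rw [h6] at hMi'; simp at hMi'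
        have heqM : M % 2 ^ i = M := by
          have h7 : M / 2 ^ i < 2 := by
            apply Nat.div_lt_of_lt_mul
            rw [← Nat.pow_succ]
            exact hM
          have h8 : M / 2 ^ i = 0 := by
            generalize M / 2 ^ i = q at h5 h7
            omega
          rw [h8] at hbit
          omega
        have h2 := ih r acc hh (M % 2 ^ i) hM' hdlow (by
          rw [hlow]
          rw [hsucc, land_shiftRight_one, h5] at hp
          omega)
        rwa [heqM] at h2
    · rw [hr, bcond_true] at h
      have hr0 : r = 0 := Nat.eq_of_beq_eq_true hr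
      subst hr0
      have hM0 : M = 0 := by
        apply Nat.eq_of_testBit_eq
        intro x
        simp only [Nat.zero_testBit]
        by_cases hxi : x < i + 1
        · have h3 := Enc.popAux_eq M (i + 1)
          rw [hp] at h3
          have h4 := Finset.card_eq_zero.1 h3.symm
          by_contra hne
          have hne' : M.testBit x = true := by simpa using hne
          have : x ∈ (Finset.range (i + 1)).filter (fun i => M.testBit i = true) := by
            simp [hxi, hne']
          rw [h4] at this
          simp at this
        · apply Nat.testBit_lt_two_pow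
          exact lt_of_lt_of_le hM (Nat.pow_le_pow_right (by norm_num) (by omega))
      subst hM0
      simpa using h

/-! ### Relabelling -/

section relabel

variable {α : Type*} {n : ℕ}

theorem checkPerm_inj [Fintype α] (E : Enc α n) {f : ℕ → ℕ} (hf : checkPerm n f = true) {i j : ℕ}
    (hi : i < n) (hj : j < n) (h : f i = f j) : i = j := by
  have hb := E.fnOf_bijective hf
  have h1 : E.fnOf f (E.pt i) = E.fnOf f (E.pt j) := by
    simp only [Enc.fnOf]
    rw [E.idx_pt i hi, E.idx_pt j hj, h]
  have h2 := hb.1 h1
  rw [← E.idx_pt i hi, h2, E.idx_pt j hj]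

/-- Relabelling an enumeration by a permutation of the numbers below `n`. -/
noncomputable def relabel [Fintype α] (E : Enc α n) (f : ℕ → ℕ) (hf : checkPerm n f = true) : Enc α n where
  idx a := f (E.idx a)
  pt j := E.pt (if h : j < n then Classical.choose ((checkPerm_spec hf).2 j h) else 0)
  idx_lt a := (checkPerm_spec hf).1 _ (E.idx_lt a)
  pt_idx a := by
    have hlt : f (E.idx a) < n := (checkPerm_spec hf).1 _ (E.idx_lt a)
    simp only [hlt, dif_pos]
    have h1 := Classical.choose_spec ((checkPerm_spec hf).2 _ hlt)
    have h2 := checkPerm_inj E hf h1.1 (E.idx_lt a) h1.2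
    rw [h2, E.pt_idx]
  idx_pt j hj := by
    simp only [hj, dif_pos]
    have h1 := Classical.choose_spec ((checkPerm_spec hf).2 _ hj)
    rw [E.idx_pt _ h1.1]
    exact h1.2

theorem finOf_relabel [Fintype α] (E : Enc α n) {f : ℕ → ℕ} (hf : checkPerm n f = true) (x : ℕ) :
    (relabel E f hf).finOf (imgMask f x n) = E.finOf x := by
  ext a
  simp only [Enc.mem_finOf]
  show (imgMask f x n).testBit (f (E.idx a)) = true ↔ _
  rw [testBit_imgMask]
  constructor
  · rintro ⟨i, hi, hx, hfi⟩
    have := checkPerm_inj E hf hi (E.idx_lt a) hfi
    rwa [← this]
  · intro h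
    exact ⟨_, E.idx_lt a, h, rfl⟩

end relabel

/-! ### The search rules -/

/-- The mask `m` is consistent with the blocks in `T`, `A` being the mask of allowed intersections. -/
noncomputable def consM (A : ℕ) (T : List ℕ) (m : ℕ) : Bool :=
  allL (fun b => bcond (Nat.beq b m) true (tb A (fpop (Nat.land b m)))) T

/-- The code of a packed permutation. -/
abbrev pc5 (p : ℕ) : ℕ → ℕ := pget 5 31 p

variable {α : Type*} [Fintype α] [DecidableEq α]

/-- Some enumeration makes all the masks of `blocks0` blocks. -/
def HasStd (n : ℕ) (B : Set (Finset α)) (blocks0 : List ℕ) : Prop :=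
  ∃ E : Enc α n, ∀ m ∈ blocks0, E.finOf m ∈ B

/-- Any enumeration making the masks in `T` blocks implies `HasStd`. -/
def Holds (n : ℕ) (B : Set (Finset α)) (blocks0 T : List ℕ) : Prop :=
  ∀ E : Enc α n, (∀ m ∈ T, E.finOf m ∈ B) → HasStd n B blocks0

variable {n t k A : ℕ} {B : Set (Finset α)} {blocks0 : List ℕ}

theorem card_finOf_eq_fpop (hn : n ≤ 24) (E : Enc α n) {m : ℕ} (hm : m < 2 ^ n) :
    (E.finOf m).card = fpop m := by
  rw [E.card_finOf, fpop_eq (lt_of_lt_of_le hm (Nat.pow_le_pow_right (by norm_num) hn)),
    popAux_high hm hn]

/-- The mask of the block through a set of size `t`. -/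
theorem exists_block_mask (hn : n ≤ 24) (hB : IsSteinerSystem t k B) (E : Enc α n) {s : ℕ}
    (hsb : s < 2 ^ n) (hs : fpop s = t) :
    ∃ m, m < 2 ^ n ∧ E.finOf m ∈ B ∧ (∀ M', E.finOf M' ∈ B → M' < 2 ^ n → E.finOf s ⊆ E.finOf M' → M' = m) ∧
      ∀ (f : ℕ → Bool), enumM s f n (k - t) s = true → f m = true := by
  have hcard : (E.finOf s).card = t := by
    rw [card_finOf_eq_fpop hn E hsb, hs]
  obtain ⟨b, ⟨hb, hsub⟩, huniq⟩ := hB.2 _ hcard
  obtain ⟨m, hm, rfl⟩ := E.exists_mask b
  refine ⟨m, hm, hb, ?_, ?_⟩
  · intro M' hM' hb' hsub'
    have := huniq _ ⟨hM', hsub'⟩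
    exact E.finOf_injOn hb' hm this
  · intro f hf
    -- bits of `m` above `s`
    have hsm : ∀ i, i < n → s.testBit i = true → m.testBit i = true := by
      intro i hi hsi
      have h1 : E.pt i ∈ E.finOf s := by
        rw [Enc.mem_finOf, E.idx_pt i hi]
        exact hsi
      have h2 := hsub h1
      rw [Enc.mem_finOf, E.idx_pt i hi] at h2
      exact h2
    have hMlt : m ^^^ s < 2 ^ n := Nat.xor_lt_two_pow hm hsb
    have hdisj : ∀ x, (m ^^^ s).testBit x = true → s.testBit x = false := by
      intro x hx
      by_cases hxn : x < n
      · rw [Nat.testBit_xor] at hx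
        cases hs' : s.testBit x
        · rfl
        · have := hsm x hxn hs'
          rw [this, hs'] at hx
          simp at hx
      · exact Nat.testBit_lt_two_pow (lt_of_lt_of_le hsb (Nat.pow_le_pow_right (by norm_num) (by omega)))
    have hpop : Enc.popAux (m ^^^ s) n = k - t := by
      rw [← E.card_finOf, E.finOf_xor]
      have h3 := hB.1 _ hb
      have h4 : symmDiff (E.finOf m) (E.finOf s) = E.finOf m \ E.finOf s := by
        rw [symmDiff_def, Finset.sup_eq_union, Finset.sdiff_eq_empty_iff_subset.2 hsub, Finset.union_empty]
      rw [h4, Finset.card_sdiff_of_subset hsub, h3, hcard]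
    have h5 := enumM_spec s f n _ _ hf _ hMlt hdisj hpop
    have h6 : s ||| (m ^^^ s) = m := by
      apply Nat.eq_of_testBit_eq
      intro x
      rw [Nat.testBit_or, Nat.testBit_xor]
      by_cases hxn : x < n
      · cases hs' : s.testBit x
        · simp
        · simp [hsm x hxn hs']
      · have h7 : s.testBit x = false :=
          Nat.testBit_lt_two_pow (lt_of_lt_of_le hsb (Nat.pow_le_pow_right (by norm_num) (by omega)))
        simp [h7]
    rwa [h6] at h5

/-- A known block of `T` and the block `m` are consistent. -/
theorem consM_of_blocks (hn : n ≤ 24) (hall : ∀ b ∈ B, ∀ c ∈ B, b ≠ c → tb A (b ∩ c).card = true)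
    (E : Enc α n) {T : List ℕ} (hTb : allL (fun b => Nat.blt b (2 ^ n)) T = true)
    (hT : ∀ m ∈ T, E.finOf m ∈ B) {m : ℕ} (hm : m < 2 ^ n) (hmB : E.finOf m ∈ B) : consM A T m = true := by
  rw [consM, allL_iff]
  intro b hb
  have hb2 : b < 2 ^ n := by
    have := allL_iff.1 hTb b hb
    simpa using this
  cases h : Nat.beq b m
  · rw [bcond_false]
    have hne : b ≠ m := Nat.ne_of_beq_eq_false h
    have hfin : E.finOf b ≠ E.finOf m := fun h' => hne (E.finOf_injOn hb2 hm h')
    have h2 := hall _ (hT b hb) _ hmB hfin
    have h3 : Nat.land b m < 2 ^ n := Nat.and_lt_two_pow b hm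
    have h4 : (E.finOf b ∩ E.finOf m).card = fpop (Nat.land b m) := by
      rw [← E.finOf_and]
      exact card_finOf_eq_fpop hn E h3
    rwa [h4] at h2
  · rfl

/-- The check of a child of a branch. -/
noncomputable def kidOK (n : ℕ) (Ts : List (List ℕ)) (T : List ℕ) (e : ℕ × ℕ × ℕ) : Bool :=
  Nat.blt e.2.2 Ts.length && checkPerm n (pc5 e.2.1) && Nat.blt e.1 (2 ^ n) &&
    allL (fun b => anyL (fun x => Nat.beq (imgMask (pc5 e.2.1) x n) b) (e.1 :: T)) (Ts.getD e.2.2 [])

theorem holds_of_kid {Ts : List (List ℕ)} {T : List ℕ} {e : ℕ × ℕ × ℕ}
    (hTs : ∀ j, j < Ts.length → Holds n B blocks0 (Ts.getD j []))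
    (hok : kidOK n Ts T e = true) (E : Enc α n) (hT : ∀ m ∈ T, E.finOf m ∈ B) (he : E.finOf e.1 ∈ B) :
    HasStd n B blocks0 := by
  simp only [kidOK, Bool.and_eq_true] at hok
  obtain ⟨⟨⟨h1, h2⟩, _⟩, h4⟩ := hok
  have hj : e.2.2 < Ts.length := by simpa using h1
  apply hTs _ hj (relabel E _ h2)
  intro b hb
  obtain ⟨x, hx, hxb⟩ := anyL_iff.1 (allL_iff.1 h4 b hb)
  rw [← Nat.eq_of_beq_eq_true hxb, finOf_relabel]
  rcases List.mem_cons.1 hx with rfl | hx
  · exact he
  · exact hT x hx

/-- Case distinction on the block through the set `s`. -/
theorem holds_branch (hn : n ≤ 24) (hB : IsSteinerSystem t k B)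
    (hall : ∀ b ∈ B, ∀ c ∈ B, b ≠ c → tb A (b ∩ c).card = true)
    {T : List ℕ} {s : ℕ} {kids : List (ℕ × ℕ × ℕ)} {Ts : List (List ℕ)}
    (hTs : ∀ j, j < Ts.length → Holds n B blocks0 (Ts.getD j []))
    (hTb : allL (fun b => Nat.blt b (2 ^ n)) T = true) (hsb : s < 2 ^ n) (hs : fpop s = t)
    (hkids : allL (kidOK n Ts T) kids = true)
    (henum : enumM s (fun c => bcond (consM A T c) (anyL (fun e => Nat.beq e.1 c) kids) true)
      n (k - t) s = true) :
    Holds n B blocks0 T := by
  intro E hT
  obtain ⟨m, hm, hmB, _, hf⟩ := exists_block_mask hn hB E hsb hs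
  have h1 := hf _ henum
  have h2 := consM_of_blocks hn hall E hTb hT hm hmB
  rw [h2, bcond_true] at h1
  obtain ⟨e, he, hem⟩ := anyL_iff.1 h1
  have hem' : e.1 = m := Nat.eq_of_beq_eq_true hem
  exact holds_of_kid hTs (allL_iff.1 hkids e he) E hT (by rw [hem']; exact hmB)

/-- One forced step: all the other candidates are inconsistent. -/
noncomputable def stepOK (n t A r : ℕ) (st : ℕ × ℕ) (T : List ℕ) : Bool :=
  Nat.blt st.1 (2 ^ n) && Nat.beq (fpop st.1) t && Nat.blt st.2 (2 ^ n) &&
    enumM st.1 (fun c => bcond (Nat.beq c st.2) true (!consM A T c)) n r st.1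

/-- A forced sequence of blocks, and a final check. -/
noncomputable def fCheck (n t A r : ℕ) (final : List ℕ → Bool) (steps : List (ℕ × ℕ)) : List ℕ → Bool :=
  List.rec final (fun st _ ih T => bcond (stepOK n t A r st T) (ih (st.2 :: T)) false) steps

/-- Inclusion of lists of masks. -/
noncomputable def subL (Tf T : List ℕ) : Bool := allL (fun b => anyL (Nat.beq b) T) Tf

theorem stepOK_mem (hn : n ≤ 24) (hB : IsSteinerSystem t k B)
    (hall : ∀ b ∈ B, ∀ c ∈ B, b ≠ c → tb A (b ∩ c).card = true)
    {T : List ℕ} {st : ℕ × ℕ} (hTb : allL (fun b => Nat.blt b (2 ^ n)) T = true)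
    (h : stepOK n t A (k - t) st T = true) (E : Enc α n) (hT : ∀ m ∈ T, E.finOf m ∈ B) :
    E.finOf st.2 ∈ B := by
  simp only [stepOK, Bool.and_eq_true] at h
  obtain ⟨⟨⟨h1, h2⟩, _⟩, h4⟩ := h
  have hsb : st.1 < 2 ^ n := by simpa using h1
  obtain ⟨m, hm, hmB, _, hf⟩ := exists_block_mask hn hB E hsb (Nat.eq_of_beq_eq_true h2)
  have h5 := hf _ h4
  have h6 := consM_of_blocks hn hall E hTb hT hm hmB
  rw [h6] at h5
  cases h7 : Nat.beq m st.2
  · rw [h7] at h5
    simp at h5
  · rw [← Nat.eq_of_beq_eq_true h7]
    exact hmB

/-- Forced blocks. -/
theorem holds_forced (hn : n ≤ 24) (hB : IsSteinerSystem t k B)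
    (hall : ∀ b ∈ B, ∀ c ∈ B, b ≠ c → tb A (b ∩ c).card = true)
    {Tf : List ℕ} (hf : Holds n B blocks0 Tf) (steps : List (ℕ × ℕ)) :
    ∀ T : List ℕ, allL (fun b => Nat.blt b (2 ^ n)) T = true →
      fCheck n t A (k - t) (subL Tf) steps T = true → Holds n B blocks0 T := by
  induction steps with
  | nil =>
    intro T _ h E hT
    apply hf E
    intro b hb
    have h1 : subL Tf T = true := h
    obtain ⟨x, hx, hbx⟩ := anyL_iff.1 (allL_iff.1 h1 b hb)
    rw [Nat.eq_of_beq_eq_true hbx]
    exact hT x hx
  | cons st l ih =>
    intro T hTb h E hT
    have h1 : fCheck n t A (k - t) (subL Tf) (st :: l) T =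
      bcond (stepOK n t A (k - t) st T) (fCheck n t A (k - t) (subL Tf) l (st.2 :: T)) false := rfl
    rw [h1] at h
    cases h2 : stepOK n t A (k - t) st T
    · rw [h2] at h
      simp at h
    · rw [h2, bcond_true] at h
      have hb : st.2 < 2 ^ n := by
        simp only [stepOK, Bool.and_eq_true] at h2
        simpa using h2.1.2
      have hT' : allL (fun b => Nat.blt b (2 ^ n)) (st.2 :: T) = true := by
        rw [allL_iff] at hTb ⊢
        intro a ha
        rcases List.mem_cons.1 ha with rfl | ha
        · simpa using hb
        · exact hTb a ha
      apply ih _ hT' h E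
      intro m hm
      rcases List.mem_cons.1 hm with rfl | hm
      · exact stepOK_mem hn hB hall hTb h2 E hT
      · exact hT m hm

/-- The list `blocks0` itself. -/
theorem holds_self : Holds n B blocks0 blocks0 := fun E hE => ⟨E, hE⟩

/-- An enumeration exists. -/
theorem exists_enc (hα : Fintype.card α = n) (hn : 0 < n) : Nonempty (Enc α n) := by
  classical
  let e := Fintype.equivFinOfCardEq hα
  exact ⟨{ idx := fun a => (e a).1
           pt := fun i => e.symm ⟨i % n, Nat.mod_lt _ hn⟩
           idx_lt := fun a => (e a).2
           pt_idx := fun a => by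
            have : (⟨(e a).1 % n, Nat.mod_lt _ hn⟩ : Fin n) = e a := by
              apply Fin.ext
              exact Nat.mod_eq_of_lt (e a).2
            simp [this]
           idx_pt := fun i hi => by
            simp [Nat.mod_eq_of_lt hi] }⟩

/-- From the standard blocks to the whole system. -/
theorem eq_of_hasStd (hB : IsSteinerSystem t k B) (hα : Fintype.card α = n) (htk : t ≤ k)
    (hb0 : ∀ m ∈ blocks0, m < 2 ^ n) (hnd : blocks0.Nodup)
    (hN : blocks0.length * k.choose t = n.choose t) (E : Enc α n) (hE : ∀ m ∈ blocks0, E.finOf m ∈ B) :
    B = (fun m => E.finOf m) '' {m | m ∈ blocks0} := by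
  classical
  have hcard : B.ncard = blocks0.length := by
    have h1 := lambda_eq hB ∅ (by simp)
    simp only [Finset.card_empty, Nat.sub_zero, Finset.empty_subset, Finset.filter_true] at h1
    rw [ncard_eq_card_blocks]
    rw [hα, ← hN] at h1
    exact Nat.eq_of_mul_eq_mul_right (Nat.choose_pos htk) h1
  symm
  apply Set.eq_of_subset_of_ncard_le (s := (fun m => E.finOf m) '' {m | m ∈ blocks0}) (t := B)
  · rintro _ ⟨m, hm, rfl⟩
    exact hE m hm
  · rw [hcard, Set.InjOn.ncard_image]
    · have : {m | m ∈ blocks0} = (blocks0.toFinset : Set ℕ) := by
        ext m; simp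
      rw [this, Set.ncard_coe_finset, List.toFinset_card_of_nodup hnd]
    · intro a ha b hb hab
      exact E.finOf_injOn (hb0 a ha) (hb0 b hb) hab

/-- Two Steiner systems with the standard blocks are isomorphic. -/
theorem iso_of_hasStd {β : Type*} [Fintype β] [DecidableEq β] {B' : Set (Finset β)}
    (hB : IsSteinerSystem t k B) (hB' : IsSteinerSystem t k B') (hα : Fintype.card α = n)
    (hβ : Fintype.card β = n) (htk : t ≤ k) (hb0 : ∀ m ∈ blocks0, m < 2 ^ n) (hnd : blocks0.Nodup)
    (hN : blocks0.length * k.choose t = n.choose t) (h : HasStd n B blocks0) (h' : HasStd n B' blocks0) :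
    SetSystemIso B B' := by
  obtain ⟨E, hE⟩ := h
  obtain ⟨E', hE'⟩ := h'
  refine ⟨E.equivFin.trans E'.equivFin.symm, ?_⟩
  rw [eq_of_hasStd hB hα htk hb0 hnd hN E hE, eq_of_hasStd hB' hβ htk hb0 hnd hN E' hE', Set.image_image]
  apply Set.image_congr
  intro m _
  ext b
  simp only [Finset.mem_image, Enc.mem_finOf, Equiv.trans_apply]
  constructor
  · rintro ⟨a, ha, rfl⟩
    have h1 : E'.idx (E'.equivFin.symm (E.equivFin a)) = E.idx a := by
      show E'.idx (E'.pt (E.idx a)) = E.idx a
      exact E'.idx_pt _ (E.idx_lt a)
    rw [h1]
    exact ha
  · intro hb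
    refine ⟨E.pt (E'.idx b), ?_, ?_⟩
    · rw [E.idx_pt _ (by rw [← E'.idx_pt (E'.idx b) (E'.idx_lt b)]; exact E'.idx_lt _)]
      exact hb
    · show E'.pt (E.idx (E.pt (E'.idx b))) = b
      rw [E.idx_pt _ (E'.idx_lt b), E'.pt_idx]

end Cfsg.Agent.Lib.Steiner
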