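import Cfsg.Agent.Lib.Steiner.HSData
import Cfsg.Agent.Lib.Steiner.Unique

/-!
# The encoding of the vertices of the point-block graph and the existence of the group
-/

set_option autoImplicit false
set_option linter.unusedSectionVars false

namespace Cfsg.Agent.Lib.Steiner.HS

open Cfsg Equiv Cfsg.Agent.Lib.Compute

variable {α : Type*} [Fintype α] [DecidableEq α] {B : Set (Finset α)}
variable (E : Enc α 22) (hBE : B = (fun m => E.finOf m) '' {m | m ∈ U22.blocks0})

theorem nmk_eq {j : ℕ} (hj : j < 77) : nmk j = U22.blocks0.getD j 0 :=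
  Nat.eq_of_beq_eq_true ((allBelow_iff _ _).1 nmk_spec j hj)

theorem nmk_lt' {j : ℕ} (hj : j < 77) : nmk j < 2 ^ 22 := by
  have := (allBelow_iff _ _).1 nmk_lt j hj
  simpa [Nat.blt_eq] using this

theorem nmk_inj' {i j : ℕ} (hi : i < 77) (hj : j < 77) (h : nmk i = nmk j) : i = j := by
  have := (allBelow_iff _ _).1 ((allBelow_iff _ _).1 nmk_inj i hi) j hj
  rw [h, Nat.beq_refl] at this
  simp only [Bool.not_true, Bool.or_false] at this
  exact Nat.eq_of_beq_eq_true this

include hBE in
theorem mem_of_lt {j : ℕ} (hj : j < 77) : E.finOf (nmk j) ∈ B := by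
  rw [hBE]
  refine ⟨nmk j, ?_, rfl⟩
  show nmk j ∈ U22.blocks0
  rw [nmk_eq hj]
  have hj' : j < U22.blocks0.length := by rw [U22.blocks0_length]; exact hj
  rw [List.getD_eq_getElem _ _ hj']
  exact List.getElem_mem hj'

include hBE in
theorem exists_bidx (b : B) : ∃ j, j < 77 ∧ E.finOf (nmk j) = b.1 := by
  obtain ⟨m, hm, hmb⟩ := (Set.ext_iff.1 hBE b.1).1 b.2
  obtain ⟨j, hj, rfl⟩ := List.getElem_of_mem (show m ∈ U22.blocks0 from hm)
  have hj' : j < 77 := by rw [← U22.blocks0_length]; exact hj
  refine ⟨j, hj', ?_⟩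
  rw [nmk_eq hj', List.getD_eq_getElem _ _ hj]
  exact hmb

/-- The index of a block. -/
noncomputable def bidx (b : B) : ℕ := Classical.choose (exists_bidx E hBE b)

theorem bidx_lt (b : B) : bidx E hBE b < 77 := (Classical.choose_spec (exists_bidx E hBE b)).1

theorem bidx_spec (b : B) : E.finOf (nmk (bidx E hBE b)) = b.1 :=
  (Classical.choose_spec (exists_bidx E hBE b)).2

theorem bidx_eq {j : ℕ} (hj : j < 77) {b : B} (h : E.finOf (nmk j) = b.1) : bidx E hBE b = j := by
  apply nmk_inj' (bidx_lt E hBE b) hj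
  apply E.finOf_injOn (nmk_lt' (bidx_lt E hBE b)) (nmk_lt' hj)
  rw [bidx_spec, h]

/-- The index of a vertex. -/
noncomputable def vIdx : Option (α ⊕ B) → ℕ
  | none => 0
  | some (Sum.inl a) => 1 + E.idx a
  | some (Sum.inr b) => 23 + bidx E hBE b

open Classical in
/-- The vertex of an index. -/
noncomputable def vPt (i : ℕ) : Option (α ⊕ B) :=
  if i = 0 then none
  else if i < 23 then some (Sum.inl (E.pt (i - 1)))
  else if h : i < 100 then some (Sum.inr ⟨E.finOf (nmk (i - 23)), mem_of_lt E hBE (by omega)⟩)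
  else none

/-- The enumeration of the vertices. -/
noncomputable def vE : Enc (Option (α ⊕ B)) 100 where
  idx := vIdx E hBE
  pt := vPt E hBE
  idx_lt := by
    rintro (_ | a | b)
    · simp [vIdx]
    · have := E.idx_lt a
      simp only [vIdx]
      omega
    · have := bidx_lt E hBE b
      simp only [vIdx]
      omega
  pt_idx := by
    rintro (_ | a | b)
    · simp [vIdx, vPt]
    · have := E.idx_lt a
      have h1 : 1 + E.idx a ≠ 0 := by omega
      have h2 : 1 + E.idx a < 23 := by omega
      have h3 : 1 + E.idx a - 1 = E.idx a := by omega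
      simp only [vIdx, vPt, h1, h2, h3, if_false, if_true, E.pt_idx]
    · have := bidx_lt E hBE b
      have h1 : 23 + bidx E hBE b ≠ 0 := by omega
      have h2 : ¬ 23 + bidx E hBE b < 23 := by omega
      have h3 : 23 + bidx E hBE b < 100 := by omega
      have h4 : 23 + bidx E hBE b - 23 = bidx E hBE b := by omega
      simp only [vIdx, vPt, h1, h2, h3, h4, if_false, dif_pos, bidx_spec]
  idx_pt := by
    intro i hi
    by_cases h1 : i = 0
    · subst h1
      simp [vIdx, vPt]
    by_cases h2 : i < 23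
    · simp only [vPt, h1, h2, if_false, if_true, vIdx]
      rw [E.idx_pt _ (by omega)]
      omega
    · simp only [vPt, h1, h2, hi, if_false, dif_pos, vIdx]
      rw [bidx_eq E hBE (j := i - 23) (by omega) rfl]
      omega

theorem vE_none : (vE E hBE).idx none = 0 := rfl
theorem vE_inl (a : α) : (vE E hBE).idx (some (Sum.inl a)) = 1 + E.idx a := rfl
theorem vE_inr (b : B) : (vE E hBE).idx (some (Sum.inr b)) = 23 + bidx E hBE b := rfl

theorem finOf_disjoint {m m' : ℕ} (hm : m < 2 ^ 22) (hm' : m' < 2 ^ 22) :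
    Disjoint (E.finOf m) (E.finOf m') ↔ Nat.land m m' = 0 := by
  rw [Finset.disjoint_iff_inter_eq_empty, ← E.finOf_and]
  have h0 : (∅ : Finset α) = E.finOf 0 := by
    ext x
    simp
  rw [h0]
  constructor
  · intro h
    exact E.finOf_injOn (Nat.and_lt_two_pow _ hm') (by norm_num) h
  · intro h
    have h1 : m &&& m' = 0 := h
    rw [h1]

omit [Fintype α] [DecidableEq α] in
theorem beq_false_of_ne {a b : ℕ} (h : a ≠ b) : Nat.beq a b = false := by
  cases h' : Nat.beq a b
  · rfl
  · exact absurd (Nat.eq_of_beq_eq_true h') h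

theorem nrel_iff (x y : Option (α ⊕ B)) :
    pointBlockRel B x y ↔ nrel ((vE E hBE).idx x) ((vE E hBE).idx y) = true := by
  rcases x with _ | a | b <;> rcases y with _ | a' | b'
  · simp [pointBlockRel, nrel, vE_none]
  · have := E.idx_lt a'
    simp only [pointBlockRel, nrel, vE_none, vE_inl, true_iff]
    simp only [Nat.beq_refl, bcond_true, Bool.and_eq_true, Nat.blt_eq]
    omega
  · have := bidx_lt E hBE b'
    simp only [pointBlockRel, nrel, vE_none, vE_inr, false_iff]
    simp only [Nat.beq_refl, bcond_true, Bool.and_eq_true, Nat.blt_eq]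
    omega
  · have := E.idx_lt a
    have h1 : Nat.beq (1 + E.idx a) 0 = false := beq_false_of_ne (by omega)
    have h2 : Nat.blt (1 + E.idx a) 23 = true := by rw [Nat.blt_eq]; omega
    simp only [pointBlockRel, nrel, vE_none, vE_inl, false_iff, h1, h2, bcond_false, bcond_true]
    simp
  · have := E.idx_lt a
    have := E.idx_lt a'
    have h1 : Nat.beq (1 + E.idx a) 0 = false := beq_false_of_ne (by omega)
    have h2 : Nat.blt (1 + E.idx a) 23 = true := by rw [Nat.blt_eq]; omega
    have h3 : Nat.ble 23 (1 + E.idx a') = false := by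
      rw [← Bool.not_eq_true, Nat.ble_eq]; omega
    simp only [pointBlockRel, nrel, vE_inl, false_iff, h1, h2, h3, bcond_false, bcond_true]
    simp
  · have := E.idx_lt a
    have hb := bidx_lt E hBE b'
    have h1 : Nat.beq (1 + E.idx a) 0 = false := beq_false_of_ne (by omega)
    have h2 : Nat.blt (1 + E.idx a) 23 = true := by rw [Nat.blt_eq]; omega
    have h3 : Nat.ble 23 (23 + bidx E hBE b') = true := by rw [Nat.ble_eq]; omega
    have h4 : Nat.sub (23 + bidx E hBE b') 23 = bidx E hBE b' := by
      show 23 + bidx E hBE b' - 23 = _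
      omega
    have h5 : Nat.sub (1 + E.idx a) 1 = E.idx a := by
      show 1 + E.idx a - 1 = _
      omega
    simp only [pointBlockRel, nrel, vE_inl, vE_inr, h1, h2, h3, h4, h5, bcond_false, bcond_true,
      Bool.true_and]
    rw [tb_eq, ← bidx_spec E hBE b', E.mem_finOf]
  · have hb := bidx_lt E hBE b
    have h1 : Nat.beq (23 + bidx E hBE b) 0 = false := beq_false_of_ne (by omega)
    have h2 : Nat.blt (23 + bidx E hBE b) 23 = false := by
      rw [← Bool.not_eq_true, Nat.blt_eq]; omega
    simp only [pointBlockRel, nrel, vE_inr, vE_none, false_iff, h1, h2, bcond_false]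
    simp
  · have hb := bidx_lt E hBE b
    have := E.idx_lt a'
    have h1 : Nat.beq (23 + bidx E hBE b) 0 = false := beq_false_of_ne (by omega)
    have h2 : Nat.blt (23 + bidx E hBE b) 23 = false := by
      rw [← Bool.not_eq_true, Nat.blt_eq]; omega
    have h3 : Nat.ble 23 (1 + E.idx a') = false := by
      rw [← Bool.not_eq_true, Nat.ble_eq]; omega
    simp only [pointBlockRel, nrel, vE_inr, vE_inl, false_iff, h1, h2, h3, bcond_false]
    simp
  · have hb := bidx_lt E hBE b
    have hb' := bidx_lt E hBE b'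
    have h1 : Nat.beq (23 + bidx E hBE b) 0 = false := beq_false_of_ne (by omega)
    have h2 : Nat.blt (23 + bidx E hBE b) 23 = false := by
      rw [← Bool.not_eq_true, Nat.blt_eq]; omega
    have h3 : Nat.ble 23 (23 + bidx E hBE b') = true := by rw [Nat.ble_eq]; omega
    have h4 : ∀ k, Nat.sub (23 + k) 23 = k := by
      intro k
      show 23 + k - 23 = _
      omega
    simp only [pointBlockRel, nrel, vE_inr, h1, h2, h3, h4, bcond_false, Bool.true_and]
    rw [← bidx_spec E hBE b, ← bidx_spec E hBE b', finOf_disjoint E (nmk_lt' hb) (nmk_lt' hb')]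
    constructor
    · intro h
      rw [h]
      rfl
    · intro h
      exact Nat.eq_of_beq_eq_true h

theorem adj_iff (x y : Option (α ⊕ B)) :
    (pointBlockGraph B).Adj x y ↔ nadj ((vE E hBE).idx x) ((vE E hBE).idx y) = true := by
  rw [pointBlockGraph, SimpleGraph.fromRel_adj, nrel_iff E hBE, nrel_iff E hBE]
  unfold nadj
  rw [Bool.and_eq_true, Bool.or_eq_true, Bool.not_eq_true']
  constructor
  · rintro ⟨h1, h2⟩
    refine ⟨?_, h2⟩
    cases h : Nat.beq ((vE E hBE).idx x) ((vE E hBE).idx y)
    · rfl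
    · exact absurd ((vE E hBE).idx_injective (Nat.eq_of_beq_eq_true h)) h1
  · rintro ⟨h1, h2⟩
    refine ⟨?_, h2⟩
    rintro rfl
    rw [Nat.beq_refl] at h1
    exact Bool.noConfusion h1

theorem checkPerm_of_checkAut {p : ℕ} (h : checkAut p = true) : checkPerm 100 (pc p) = true := by
  simp only [checkAut, Bool.and_eq_true] at h
  exact h.1

variable [Fintype (Option (α ⊕ B))]

theorem perm_mem {p : ℕ} (h : checkAut p = true) : (vE E hBE).perm (pc p) ∈ pbAut B := by
  have hp := checkPerm_of_checkAut h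
  simp only [checkAut, Bool.and_eq_true] at h
  rw [mem_pbAut]
  intro x y
  rw [adj_iff E hBE, adj_iff E hBE, (vE E hBE).idx_perm_apply hp, (vE E hBE).idx_perm_apply hp]
  have h1 := (allBelow_iff _ _).1 ((allBelow_iff _ _).1 h.2 _ ((vE E hBE).idx_lt x)) _ ((vE E hBE).idx_lt y)
  revert h1
  cases nadj ((vE E hBE).idx x) ((vE E hBE).idx y) <;> simp

include E hBE in
theorem trans_pb (a : Option (α ⊕ B)) : ∃ f ∈ pbAut B, f none = a := by
  have h1 := reach_of_treeRun (vE E hBE) (G := pbAut B) (f := fun k i => pc (gens k) i)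
    (fun k => ⟨_, perm_mem E hBE (gens_aut k), (vE E hBE).isCode_perm (checkPerm_of_checkAut (gens_aut k))⟩)
    (l := tree) (x0 := 0) (by norm_num) tree_full a
  exact h1

end Cfsg.Agent.Lib.Steiner.HS
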