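import Cfsg.Agent.Lib.Steiner.Unique
import Cfsg.Agent.Lib.Steiner.Numbers

/-!
# Intersection sizes of blocks, in the form used by the search rules
-/

set_option autoImplicit false

namespace Cfsg.Agent.Lib.Steiner

open Finset Cfsg Cfsg.Agent.Lib.Compute

variable {α : Type*} [Fintype α] [DecidableEq α]

/-- Intersection numbers of S(4,5,11). -/
theorem nfib_4_5_11 (hα : Fintype.card α = 11) {B : Set (Finset α)} (hB : IsSteinerSystem 4 5 B)
    {b : Finset α} (hb : b ∈ B) :
    nfib B b 0 = 0 ∧ nfib B b 1 = 15 ∧ nfib B b 2 = 20 ∧ nfib B b 3 = 30 ∧ nfib B b 4 = 0 ∧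
      nfib B b 5 = 1 := by
  have hc := hB.1 b hb
  have h5 := nfib_self hB (by norm_num) hb
  have h4 := nfib_large hB hb (i := 4) (by norm_num) (by norm_num)
  have m0 := moment hB b 0 66 (by norm_num) (by decide) (by rw [hα]; decide)
  have m1 := moment hB b 1 30 (by norm_num) (by decide) (by rw [hα]; decide)
  have m2 := moment hB b 2 12 (by norm_num) (by decide) (by rw [hα]; decide)
  have m3 := moment hB b 3 4 (by norm_num) (by decide) (by rw [hα]; decide)
  rw [hc] at m0 m1 m2 m3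
  simp only [sum_range_succ, sum_range_zero, h4, h5] at m0 m1 m2 m3
  norm_num [Nat.choose] at m0 m1 m2 m3
  refine ⟨?_, ?_, ?_, ?_, h4, h5⟩ <;> omega

/-- The test bit of a mask, on a value known to be one of those allowed. -/
theorem hall_5_8_24 (hα : Fintype.card α = 24) {B : Set (Finset α)} (hB : IsSteinerSystem 5 8 B) :
    ∀ b ∈ B, ∀ c ∈ B, b ≠ c → tb 21 (b ∩ c).card = true := by
  intro b hb c hc hbc
  obtain ⟨h0, h1, h2, h3, h4, h5, h6, h7, h8⟩ := nfib_5_8_24 hα hB hb
  have n1 := not_of_nfib_zero h1 hc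
  have n3 := not_of_nfib_zero h3 hc
  have hle : ¬ 5 ≤ (c ∩ b).card := fun h => hbc (eq_of_inter hB hc hb h).symm
  rw [Finset.inter_comm]
  generalize (c ∩ b).card = x at *
  have : x < 5 := by omega
  interval_cases x <;> first | decide | omega

theorem hall_4_7_23 (hα : Fintype.card α = 23) {B : Set (Finset α)} (hB : IsSteinerSystem 4 7 B) :
    ∀ b ∈ B, ∀ c ∈ B, b ≠ c → tb 10 (b ∩ c).card = true := by
  intro b hb c hc hbc
  obtain ⟨h0, h1, h2, h3, h4, h5, h6, h7⟩ := nfib_4_7_23 hα hB hb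
  have n0 := not_of_nfib_zero h0 hc
  have n2 := not_of_nfib_zero h2 hc
  have hle : ¬ 4 ≤ (c ∩ b).card := fun h => hbc (eq_of_inter hB hc hb h).symm
  rw [Finset.inter_comm]
  generalize (c ∩ b).card = x at *
  have : x < 4 := by omega
  interval_cases x <;> first | decide | omega

theorem hall_3_6_22 (hα : Fintype.card α = 22) {B : Set (Finset α)} (hB : IsSteinerSystem 3 6 B) :
    ∀ b ∈ B, ∀ c ∈ B, b ≠ c → tb 5 (b ∩ c).card = true := by
  intro b hb c hc hbc
  obtain ⟨h0, h1, h2, h3, h4, h5, h6⟩ := nfib_3_6_22 hα hB hb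
  have n1 := not_of_nfib_zero h1 hc
  have hle : ¬ 3 ≤ (c ∩ b).card := fun h => hbc (eq_of_inter hB hc hb h).symm
  rw [Finset.inter_comm]
  generalize (c ∩ b).card = x at *
  have : x < 3 := by omega
  interval_cases x <;> first | decide | omega

theorem hall_5_6_12 (hα : Fintype.card α = 12) {B : Set (Finset α)} (hB : IsSteinerSystem 5 6 B) :
    ∀ b ∈ B, ∀ c ∈ B, b ≠ c → tb 29 (b ∩ c).card = true := by
  intro b hb c hc hbc
  obtain ⟨h0, h1, h2, h3, h4, h5, h6⟩ := nfib_5_6_12 hα hB hb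
  have n1 := not_of_nfib_zero h1 hc
  have hle : ¬ 5 ≤ (c ∩ b).card := fun h => hbc (eq_of_inter hB hc hb h).symm
  rw [Finset.inter_comm]
  generalize (c ∩ b).card = x at *
  have : x < 5 := by omega
  interval_cases x <;> first | decide | omega

theorem hall_4_5_11 (hα : Fintype.card α = 11) {B : Set (Finset α)} (hB : IsSteinerSystem 4 5 B) :
    ∀ b ∈ B, ∀ c ∈ B, b ≠ c → tb 14 (b ∩ c).card = true := by
  intro b hb c hc hbc
  obtain ⟨h0, h1, h2, h3, h4, h5⟩ := nfib_4_5_11 hα hB hb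
  have n0 := not_of_nfib_zero h0 hc
  have hle : ¬ 4 ≤ (c ∩ b).card := fun h => hbc (eq_of_inter hB hc hb h).symm
  rw [Finset.inter_comm]
  generalize (c ∩ b).card = x at *
  have : x < 4 := by omega
  interval_cases x <;> first | decide | omega

theorem hall_2_5_21 {B : Set (Finset α)} (hB : IsSteinerSystem 2 5 B) :
    ∀ b ∈ B, ∀ c ∈ B, b ≠ c → tb 3 (b ∩ c).card = true := by
  intro b hb c hc hbc
  have hle : ¬ 2 ≤ (b ∩ c).card := fun h => hbc (eq_of_inter hB hb hc h)
  generalize (b ∩ c).card = x at *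
  have : x < 2 := by omega
  interval_cases x <;> decide

end Cfsg.Agent.Lib.Steiner
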