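import Cfsg.Agent.Lib.Steiner.SRG100
import Cfsg.Agent.Lib.Steiner.Transfer

/-!
# Automorphisms of the point-block graph of a set system

`pbAut B`: the group of permutations of the vertices preserving adjacency; the stabiliser of the
extra vertex is isomorphic to the automorphism group of the system (`pbHat`).
-/

set_option autoImplicit false
set_option linter.unusedSectionVars false

namespace Cfsg.Agent.Lib.Steiner

open Cfsg Equiv

variable {α : Type*} [DecidableEq α] {B : Set (Finset α)}

/-- The permutations of the vertices preserving adjacency. -/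
def pbAut (B : Set (Finset α)) : Subgroup (Perm (Option (α ⊕ B))) where
  carrier := {σ | ∀ x y, (pointBlockGraph B).Adj (σ x) (σ y) ↔ (pointBlockGraph B).Adj x y}
  one_mem' := fun _ _ => Iff.rfl
  mul_mem' := fun ha hb x y => (ha _ _).trans (hb _ _)
  inv_mem' := by
    intro σ ha x y
    have := ha (σ⁻¹ x) (σ⁻¹ y)
    have e1 : ∀ z, σ (σ⁻¹ z) = z := fun z => σ.apply_symm_apply z
    rw [e1, e1] at this
    exact this.symm

theorem mem_pbAut {σ : Perm (Option (α ⊕ B))} :
    σ ∈ pbAut B ↔ ∀ x y, (pointBlockGraph B).Adj (σ x) (σ y) ↔ (pointBlockGraph B).Adj x y := Iff.rfl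

variable [Finite α]

/-- The action on blocks. -/
def blockMap (σ : setSystemAut B) : B ≃ B where
  toFun b := ⟨b.1.image σ.1, image_mem_of_aut σ.2 b.2⟩
  invFun b := ⟨b.1.image (⇑(σ.1⁻¹)), image_mem_of_aut ((setSystemAut B).inv_mem σ.2) b.2⟩
  left_inv b := by
    apply Subtype.ext
    ext x
    simp
  right_inv b := by
    apply Subtype.ext
    ext x
    simp

theorem blockMap_coe (σ : setSystemAut B) (b : B) :
    (blockMap σ b : Finset α) = b.1.image σ.1 := rfl

/-- The induced permutation of the vertices. -/
def pbHat : setSystemAut B →* Perm (Option (α ⊕ B)) where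
  toFun σ := Equiv.optionCongr (Equiv.sumCongr σ.1 (blockMap σ))
  map_one' := by
    refine Equiv.ext fun x => ?_
    rcases x with _ | a | b
    · rfl
    · rfl
    · have h : blockMap (1 : setSystemAut B) b = b := by
        apply Subtype.ext
        ext x
        simp [blockMap_coe]
      show some (Sum.inr (blockMap (1 : setSystemAut B) b)) = some (Sum.inr b)
      rw [h]
  map_mul' := by
    intro σ τ
    refine Equiv.ext fun x => ?_
    rcases x with _ | a | b
    · rfl
    · rfl
    · have h : blockMap (σ * τ) b = blockMap σ (blockMap τ b) := by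
        apply Subtype.ext
        ext x
        simp [blockMap_coe, Finset.mem_image]
      show some (Sum.inr (blockMap (σ * τ) b)) = some (Sum.inr (blockMap σ (blockMap τ b)))
      rw [h]

@[simp] theorem pbHat_none (σ : setSystemAut B) : pbHat σ none = none := rfl
@[simp] theorem pbHat_inl (σ : setSystemAut B) (a : α) :
    pbHat σ (some (Sum.inl a)) = some (Sum.inl (σ.1 a)) := rfl
@[simp] theorem pbHat_inr (σ : setSystemAut B) (b : B) :
    pbHat σ (some (Sum.inr b)) = some (Sum.inr (blockMap σ b)) := rfl

theorem pbHat_injective : Function.Injective (pbHat (B := B)) := by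
  intro σ τ h
  apply Subtype.ext
  ext a
  have := DFunLike.congr_fun h (some (Sum.inl a))
  simp only [pbHat_inl, Option.some.injEq, Sum.inl.injEq] at this
  rw [this]

theorem pbHat_mem (σ : setSystemAut B) : pbHat σ ∈ pbAut B := by
  rw [mem_pbAut]
  intro x y
  rcases x with _ | a | b <;> rcases y with _ | a' | b'
  · simp only [pbHat_none]
  · simp only [pbHat_none, pbHat_inl]
    exact ⟨fun _ => pb_none_inl _, fun _ => pb_none_inl _⟩
  · simp only [pbHat_none, pbHat_inr]
    exact ⟨fun h => absurd h (pb_none_inr _), fun h => absurd h (pb_none_inr _)⟩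
  · simp only [pbHat_none, pbHat_inl]
    exact ⟨fun _ => (pb_none_inl _).symm, fun _ => (pb_none_inl _).symm⟩
  · simp only [pbHat_inl]
    exact ⟨fun h => absurd h (pb_inl_inl _ _), fun h => absurd h (pb_inl_inl _ _)⟩
  · simp only [pbHat_inl, pbHat_inr]
    rw [pb_inl_inr, pb_inl_inr, blockMap_coe, σ.1.injective.mem_finset_image]
  · simp only [pbHat_none, pbHat_inr]
    exact ⟨fun h => absurd h.symm (pb_none_inr _), fun h => absurd h.symm (pb_none_inr _)⟩
  · simp only [pbHat_inl, pbHat_inr]
    rw [SimpleGraph.adj_comm, pb_inl_inr, SimpleGraph.adj_comm, pb_inl_inr, blockMap_coe,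
      σ.1.injective.mem_finset_image]
  · simp only [pbHat_inr]
    rw [pb_inr_inr, pb_inr_inr, blockMap_coe, blockMap_coe, Finset.disjoint_image σ.1.injective,
      (blockMap σ).injective.ne_iff]

/-- A graph automorphism fixing the extra vertex comes from a system automorphism. -/
theorem exists_pbHat_eq {f : Perm (Option (α ⊕ B))} (hf : f ∈ pbAut B) (h0 : f none = none) :
    ∃ σ : setSystemAut B, pbHat σ = f := by
  have key : ∀ {g : Perm (Option (α ⊕ B))}, g ∈ pbAut B → g none = none →
      ∀ a, ∃ a', g (some (Sum.inl a)) = some (Sum.inl a') := by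
    intro g hg hg0 a
    have h1 := (mem_pbAut.1 hg none (some (Sum.inl a))).2 (pb_none_inl a)
    rw [hg0] at h1
    rcases hx : g (some (Sum.inl a)) with _ | a' | b'
    · rw [hx] at h1; exact absurd h1 pb_none_none
    · exact ⟨a', rfl⟩
    · rw [hx] at h1; exact absurd h1 (pb_none_inr _)
  have h0' : f⁻¹ none = none := by
    rw [Perm.inv_eq_iff_eq, h0]
  choose s hs using key hf h0
  choose s' hs' using key ((pbAut B).inv_mem hf) h0'
  have h1 : ∀ a, s (s' a) = a := by
    intro a
    have h2 := hs (s' a)
    rw [← hs' a, show f (f⁻¹ (some (Sum.inl a))) = _ from f.apply_symm_apply _] at h2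
    simpa using h2.symm
  have h2 : ∀ a, s' (s a) = a := by
    intro a
    have h2 := hs' (s a)
    rw [← hs a, show f⁻¹ (f (some (Sum.inl a))) = _ from f.symm_apply_apply _] at h2
    simpa using h2.symm
  let τ : Perm α := ⟨s, s', h2, h1⟩
  have hblk : ∀ b : B, ∃ b' : B, f (some (Sum.inr b)) = some (Sum.inr b') := by
    intro b
    rcases hx : f (some (Sum.inr b)) with _ | a' | b'
    · rw [← h0] at hx
      simpa using f.injective hx
    · exfalso
      have h3 := hs' a'
      rw [← hx, show f⁻¹ (f (some (Sum.inr b))) = _ from f.symm_apply_apply _] at h3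
      simpa using h3
    · exact ⟨b', rfl⟩
  choose t ht using hblk
  have hb : ∀ b : B, (t b : Finset α) = b.1.image τ := by
    intro b
    ext x
    have h4 := mem_pbAut.1 hf (some (Sum.inl (s' x))) (some (Sum.inr b))
    rw [hs, ht, h1, pb_inl_inr, pb_inl_inr] at h4
    rw [h4]
    constructor
    · intro h5
      exact Finset.mem_image.2 ⟨s' x, h5, h1 x⟩
    · intro h5
      obtain ⟨y, hy, rfl⟩ := Finset.mem_image.1 h5
      show s' (s y) ∈ _
      rw [h2]
      exact hy
  have hτ : τ ∈ setSystemAut B := by
    apply mem_aut_of_forall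
    intro b hb'
    have := hb ⟨b, hb'⟩
    rw [← this]
    exact (t _).2
  refine ⟨⟨τ, hτ⟩, ?_⟩
  refine Equiv.ext fun x => ?_
  rcases x with _ | a | b
  · rw [pbHat_none, h0]
  · rw [pbHat_inl, hs]; rfl
  · rw [pbHat_inr, ht]
    have : blockMap ⟨τ, hτ⟩ b = t b := by
      apply Subtype.ext
      rw [blockMap_coe, hb]
    rw [this]

end Cfsg.Agent.Lib.Steiner
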