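import Cfsg.Agent.Lib.Steiner.Unique
import Cfsg.Agent.Lib.Steiner.Inter
import Cfsg.Agent.Lib.Steiner.U12
import Cfsg.Agent.Lib.Steiner.Transfer

/-!
# Rigidity of set systems by search

`aSearch n bl rest P`: there is no automorphism of the family of masks `bl` extending the partial
map `P`, other than those which are the identity on `rest` and on the domain of `P`.
-/

set_option autoImplicit false

namespace Cfsg.Agent.Lib.Steiner

open Cfsg Cfsg.Agent.Lib.Compute

/-- Image of a mask under a list of pairs. -/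
noncomputable def imgP (P : List (ℕ × ℕ)) (m : ℕ) : ℕ :=
  List.rec 0 (fun e _ ih => bcond (tb m e.1) (Nat.lor (Nat.shiftLeft 1 e.2) ih) ih) P

/-- The mask of the values of a list of pairs. -/
noncomputable def ranP (P : List (ℕ × ℕ)) : ℕ :=
  List.rec 0 (fun e _ ih => Nat.lor (Nat.shiftLeft 1 e.2) ih) P

theorem testBit_lor_shift (a z y : ℕ) :
    (Nat.lor (Nat.shiftLeft 1 y) a).testBit z = true ↔ y = z ∨ a.testBit z = true := by
  show ((1 <<< y) ||| a).testBit z = true ↔ _
  rw [Nat.testBit_or, Bool.or_eq_true, Nat.one_shiftLeft, Nat.testBit_two_pow]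
  simp

theorem testBit_imgP (P : List (ℕ × ℕ)) (m z : ℕ) :
    (imgP P m).testBit z = true ↔ ∃ e ∈ P, m.testBit e.1 = true ∧ e.2 = z := by
  induction P with
  | nil =>
    show (0 : ℕ).testBit z = true ↔ _
    simp
  | cons e P ih =>
    have h1 : imgP (e :: P) m = bcond (tb m e.1) (Nat.lor (Nat.shiftLeft 1 e.2) (imgP P m)) (imgP P m) := rfl
    rw [h1, tb_eq]
    cases h : m.testBit e.1
    · rw [bcond_false, ih]
      constructor
      · rintro ⟨a, ha, h2⟩
        exact ⟨a, List.mem_cons_of_mem _ ha, h2⟩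
      · rintro ⟨a, ha, h2, h3⟩
        rcases List.mem_cons.1 ha with rfl | ha
        · rw [h] at h2
          exact absurd h2 (by decide)
        · exact ⟨a, ha, h2, h3⟩
    · rw [bcond_true, testBit_lor_shift, ih]
      constructor
      · rintro (h2 | ⟨a, ha, h2⟩)
        · exact ⟨e, List.mem_cons_self, h, h2⟩
        · exact ⟨a, List.mem_cons_of_mem _ ha, h2⟩
      · rintro ⟨a, ha, h2, h3⟩
        rcases List.mem_cons.1 ha with rfl | ha
        · exact Or.inl h3
        · exact Or.inr ⟨a, ha, h2, h3⟩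

theorem testBit_ranP (P : List (ℕ × ℕ)) (z : ℕ) :
    (ranP P).testBit z = true ↔ ∃ e ∈ P, e.2 = z := by
  induction P with
  | nil =>
    show (0 : ℕ).testBit z = true ↔ _
    simp
  | cons e P ih =>
    have h1 : ranP (e :: P) = Nat.lor (Nat.shiftLeft 1 e.2) (ranP P) := rfl
    rw [h1, testBit_lor_shift, ih]
    constructor
    · rintro (h2 | ⟨a, ha, h2⟩)
      · exact ⟨e, List.mem_cons_self, h2⟩
      · exact ⟨a, List.mem_cons_of_mem _ ha, h2⟩
    · rintro ⟨a, ha, h2⟩
      rcases List.mem_cons.1 ha with rfl | ha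
      · exact Or.inl h2
      · exact Or.inr ⟨a, ha, h2⟩

/-- Some block has no possible image. -/
noncomputable def badP (bl : List ℕ) (P : List (ℕ × ℕ)) : Bool :=
  anyL (fun b => !anyL (fun c => Nat.beq (Nat.land c (ranP P)) (imgP P b)) bl) bl

/-- The search. -/
noncomputable def aSearch (n : ℕ) (bl rest : List ℕ) : List (ℕ × ℕ) → Bool :=
  List.rec (fun P => bcond (allL (fun e => Nat.beq e.1 e.2) P) true (badP bl P))
    (fun x _ ih P => bcond (badP bl P) true
      (allBelow (fun y => bcond (tb (ranP P) y) true (ih ((x, y) :: P))) n)) rest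

section spec

variable {n : ℕ} {bl : List ℕ} {f : ℕ → ℕ}

theorem not_bad (hinj : ∀ i j, i < n → j < n → f i = f j → i = j)
    (hbl : ∀ b ∈ bl, imgMask f b n ∈ bl) {P : List (ℕ × ℕ)} (hP : ∀ e ∈ P, e.1 < n ∧ f e.1 = e.2) :
    badP bl P = false := by
  cases h : badP bl P
  · rfl
  · exfalso
    obtain ⟨b, hb, h1⟩ := anyL_iff.1 h
    rw [Bool.not_eq_true'] at h1
    have h2 : anyL (fun c => Nat.beq (Nat.land c (ranP P)) (imgP P b)) bl = true := by
      refine anyL_iff.2 ⟨imgMask f b n, hbl b hb, ?_⟩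
      have h3 : Nat.land (imgMask f b n) (ranP P) = imgP P b := by
        apply Nat.eq_of_testBit_eq
        intro z
        apply Bool.eq_iff_iff.2
        show (imgMask f b n &&& ranP P).testBit z = true ↔ _
        rw [Nat.testBit_and, Bool.and_eq_true, testBit_imgMask, testBit_ranP, testBit_imgP]
        constructor
        · rintro ⟨⟨i, hi, hbi, rfl⟩, e, he, hez⟩
          obtain ⟨h4, h5⟩ := hP e he
          have h6 := hinj i e.1 hi h4 (by rw [h5, hez])
          subst h6
          exact ⟨e, he, hbi, hez⟩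
        · rintro ⟨e, he, hbe, hez⟩
          obtain ⟨h4, h5⟩ := hP e he
          exact ⟨⟨e.1, h4, hbe, by rw [h5, hez]⟩, e, he, hez⟩
      rw [h3]
      exact Nat.beq_refl _
    rw [h1] at h2
    exact absurd h2 (by decide)

theorem aSearch_spec (hf : ∀ i, i < n → f i < n) (hinj : ∀ i j, i < n → j < n → f i = f j → i = j)
    (hbl : ∀ b ∈ bl, imgMask f b n ∈ bl) (rest : List ℕ) :
    ∀ P : List (ℕ × ℕ), aSearch n bl rest P = true → (∀ x ∈ rest, x < n) →
      (∀ e ∈ P, e.1 < n ∧ f e.1 = e.2) → (∀ x ∈ rest, ∀ e ∈ P, x ≠ e.1) → rest.Nodup →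
      (∀ e ∈ P, e.1 = e.2) ∧ ∀ x ∈ rest, f x = x := by
  induction rest with
  | nil =>
    intro P h _ hP _ _
    have h1 : aSearch n bl [] P = bcond (allL (fun e => Nat.beq e.1 e.2) P) true (badP bl P) := rfl
    rw [h1, not_bad hinj hbl hP] at h
    cases h2 : allL (fun e => Nat.beq e.1 e.2) P
    · rw [h2] at h
      exact absurd h (by decide)
    · refine ⟨fun e he => Nat.eq_of_beq_eq_true (allL_iff.1 h2 e he), ?_⟩
      simp
  | cons x rest ih =>
    intro P h hlt hP hd hnd
    have h1 : aSearch n bl (x :: rest) P = bcond (badP bl P) true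
        (allBelow (fun y => bcond (tb (ranP P) y) true (aSearch n bl rest ((x, y) :: P))) n) := rfl
    rw [h1, not_bad hinj hbl hP, bcond_false] at h
    have hx : x < n := hlt x List.mem_cons_self
    have h2 := (allBelow_iff _ _).1 h (f x) (hf x hx)
    have h3 : tb (ranP P) (f x) = false := by
      cases h4 : tb (ranP P) (f x)
      · rfl
      · exfalso
        rw [tb_eq, testBit_ranP] at h4
        obtain ⟨e, he, hez⟩ := h4
        obtain ⟨h5, h6⟩ := hP e he
        have h7 := hinj e.1 x h5 hx (by rw [h6, hez])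
        exact hd x List.mem_cons_self e he h7.symm
    rw [h3, bcond_false] at h2
    obtain ⟨h4, h5⟩ := List.nodup_cons.1 hnd
    obtain ⟨h6, h7⟩ := ih _ h2 (fun y hy => hlt y (List.mem_cons_of_mem _ hy))
      (by
        intro e he
        rcases List.mem_cons.1 he with rfl | he
        · exact ⟨hx, rfl⟩
        · exact hP e he)
      (by
        intro y hy e he
        rcases List.mem_cons.1 he with rfl | he
        · rintro rfl
          exact h4 hy
        · exact hd y (List.mem_cons_of_mem _ hy) e he) h5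
    refine ⟨fun e he => h6 e (List.mem_cons_of_mem _ he), ?_⟩
    intro y hy
    rcases List.mem_cons.1 hy with rfl | hy
    · exact (h6 _ List.mem_cons_self).symm
    · exact h7 y hy

end spec

section main

variable {α : Type*} [Fintype α] [DecidableEq α] {n : ℕ}

theorem imgMask_lt {f : ℕ → ℕ} (hf : ∀ i, i < n → f i < n) (m : ℕ) : imgMask f m n < 2 ^ n := by
  apply Nat.lt_pow_two_of_testBit
  intro j hj
  cases h : (imgMask f m n).testBit j
  · rfl
  · rw [testBit_imgMask] at h
    obtain ⟨i, hi, _, rfl⟩ := h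
    have := hf i hi
    omega

/-- Rigidity from the search: an automorphism fixing the base is the identity. -/
theorem rigid_of_search (E : Enc α n) {bl : List ℕ} (hb0 : ∀ b ∈ bl, b < 2 ^ n)
    {B : Set (Finset α)} (hB : B = (fun m => E.finOf m) '' {m | m ∈ bl}) {base rest : List ℕ}
    (hcover : ∀ i, i < n → i ∈ rest ∨ i ∈ base) (hbase : ∀ x ∈ base, x < n) (hrest : ∀ x ∈ rest, x < n)
    (hd : ∀ x ∈ rest, x ∉ base) (hnd : rest.Nodup)
    (hcheck : aSearch n bl rest (base.map fun x => (x, x)) = true)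
    {τ : Equiv.Perm α} (hτ : τ ∈ setSystemAut B) (hfix : ∀ x ∈ base, τ (E.pt x) = E.pt x) : τ = 1 := by
  let f : ℕ → ℕ := fun i => E.idx (τ (E.pt i))
  have hcode : E.IsCode τ f := by
    intro a
    show E.idx (τ (E.pt (E.idx a))) = _
    rw [E.pt_idx]
  have hf : ∀ i, i < n → f i < n := fun i _ => E.idx_lt _
  have hinj : ∀ i j, i < n → j < n → f i = f j → i = j := by
    intro i j hi hj h
    have h1 := τ.injective (E.idx_injective h)
    rw [← E.idx_pt i hi, h1, E.idx_pt j hj]
  have hbl : ∀ b ∈ bl, imgMask f b n ∈ bl := by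
    intro b hb
    have h1 : E.finOf b ∈ B := by
      rw [hB]
      exact ⟨b, hb, rfl⟩
    have h2 := image_mem_of_aut hτ h1
    rw [← hcode.finOf_img, hB] at h2
    obtain ⟨m, hm, h3⟩ := h2
    rw [E.finOf_injOn (imgMask_lt hf b) (hb0 m hm) h3.symm]
    exact hm
  have hP : ∀ e ∈ base.map (fun x => (x, x)), e.1 < n ∧ f e.1 = e.2 := by
    intro e he
    obtain ⟨x, hx, rfl⟩ := List.mem_map.1 he
    refine ⟨hbase x hx, ?_⟩
    show E.idx (τ (E.pt x)) = x
    rw [hfix x hx, E.idx_pt x (hbase x hx)]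
  have hd' : ∀ x ∈ rest, ∀ e ∈ base.map (fun x => (x, x)), x ≠ e.1 := by
    intro x hx e he
    obtain ⟨y, hy, rfl⟩ := List.mem_map.1 he
    rintro rfl
    exact hd _ hx hy
  obtain ⟨-, h2⟩ := aSearch_spec hf hinj hbl rest _ hcheck hrest hP hd' hnd
  ext a
  apply E.idx_injective
  rw [← hcode a]
  show f (E.idx a) = E.idx a
  rcases hcover _ (E.idx_lt a) with h | h
  · exact h2 _ h
  · have := hP (E.idx a, E.idx a) (List.mem_map.2 ⟨_, h, rfl⟩)
    exact this.2

/-- Rigidity of the Steiner system S(5,6,12). -/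
theorem aSearch12 : aSearch 12 U12.blocks0 [5, 6, 7, 8, 9, 10, 11] [(0, 0), (1, 1), (2, 2), (3, 3), (4, 4)] = true := by
  decide +kernel

end main

end Cfsg.Agent.Lib.Steiner
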