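import Cfsg.Agent.Lib.Steiner.Graphs

/-!
# A strongly regular graph (100, 22, 0, 6) comes from an S(3,6,22)
-/

set_option autoImplicit false
set_option linter.unusedSectionVars false
set_option linter.unusedVariables false

namespace Cfsg.Agent.Lib.Steiner

open Finset Cfsg

section

variable {V : Type*} [Fintype V] [DecidableEq V] {G : SimpleGraph V} [DecidableRel G.Adj]

/-- The neighbours. -/
local notation "N" => G.neighborFinset

theorem srg_no_triangle (h : G.IsSRGWith 100 22 0 6) {x y z : V} (hxy : G.Adj x y) (hxz : G.Adj x z)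
    (hyz : G.Adj y z) : False := by
  have h1 := h.of_adj x y hxy
  rw [card_commonNeighbors_eq, card_eq_zero, filter_eq_empty_iff] at h1
  exact h1 (mem_univ z) ⟨hxz, hyz⟩

theorem srg_card_neighbors (h : G.IsSRGWith 100 22 0 6) (x : V) : (N x).card = 22 := by
  rw [SimpleGraph.card_neighborFinset_eq_degree]
  exact h.regular x

theorem srg_card_inter (h : G.IsSRGWith 100 22 0 6) {x y : V} (hne : x ≠ y) (hn : ¬ G.Adj x y) :
    (N x ∩ N y).card = 6 := by
  have h1 := h.of_not_adj hne hn
  rw [card_commonNeighbors_eq] at h1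
  rw [← h1]
  congr 1
  ext z
  simp

variable (h : G.IsSRGWith 100 22 0 6) (v0 : V)

/-- The vertices not adjacent to `v0`, other than `v0`. -/
def farS (G : SimpleGraph V) [DecidableRel G.Adj] (v0 : V) : Finset V :=
  univ.filter fun u => u ≠ v0 ∧ ¬ G.Adj v0 u

theorem mem_farS {u : V} : u ∈ farS G v0 ↔ u ≠ v0 ∧ ¬ G.Adj v0 u := by
  simp [farS]

include h in
theorem card_farS : (farS G v0).card = 77 := by
  have h1 : (univ : Finset V).card = 100 := by rw [card_univ, h.card]
  have h2 : (farS G v0) = univ \ (insert v0 (N v0)) := by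
    ext u
    simp only [mem_farS, mem_sdiff, mem_univ, true_and, mem_insert, SimpleGraph.mem_neighborFinset, not_or]
  rw [h2, card_sdiff_of_subset (subset_univ _), h1, card_insert_of_notMem (by simp),
    srg_card_neighbors h]

variable {u : V} (hu : u ∈ farS G v0)

include h hu in
/-- The neighbours of a neighbour of `v0` besides `v0` lie far from `v0`. -/
theorem far_of_adj {a w : V} (ha : G.Adj v0 a) (haw : G.Adj a w) (hw : w ≠ v0) : w ∈ farS G v0 := by
  rw [mem_farS]
  exact ⟨hw, fun h2 => srg_no_triangle h ha h2 haw⟩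

/-- The intersection pattern of two far vertices. -/
theorem far_inter {w : V} (hw : w ∈ farS G v0) (huw : u ≠ w) (hh : G.IsSRGWith 100 22 0 6) (hu : u ∈ farS G v0) :
    (G.Adj u w → (N v0 ∩ N u ∩ N w).card = 0) ∧ (¬ G.Adj u w → (N v0 ∩ N u ∩ N w).card = 2) := by
  constructor
  · intro hadj
    rw [card_eq_zero, eq_empty_iff_forall_notMem]
    intro a ha
    simp only [mem_inter, SimpleGraph.mem_neighborFinset] at ha
    exact srg_no_triangle hh hadj ha.1.2 ha.2
  · intro hna
    set S := N v0 ∩ N u with hS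
    have hScard : S.card = 6 := srg_card_inter hh (mem_farS v0 |>.1 hu).1.symm (mem_farS v0 |>.1 hu).2
    set W' := (farS G v0).erase u with hW'
    set W := W'.filter (fun x => ¬ G.Adj u x) with hW
    have hSadj : ∀ a ∈ S, G.Adj v0 a ∧ G.Adj u a := by
      intro a ha
      simpa [hS] using ha
    -- neighbours of `a` in `W'`
    have hcount1 : ∀ a ∈ S, (W'.filter (fun x => G.Adj a x)).card = 20 := by
      intro a ha
      obtain ⟨h1, h2⟩ := hSadj a ha
      have h3 : W'.filter (fun x => G.Adj a x) = ((N a).erase v0).erase u := by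
        ext x
        simp only [hW', mem_filter, mem_erase, SimpleGraph.mem_neighborFinset]
        constructor
        · rintro ⟨⟨h4, h5⟩, h6⟩
          exact ⟨h4, (mem_farS v0 |>.1 h5).1, h6⟩
        · rintro ⟨h4, h5, h6⟩
          exact ⟨⟨h4, far_of_adj hh v0 hu h1 h6 h5⟩, h6⟩
      rw [h3, card_erase_of_mem, card_erase_of_mem, srg_card_neighbors hh]
      · exact (SimpleGraph.mem_neighborFinset _ _ _).2 h1.symm
      · rw [mem_erase]
        exact ⟨(mem_farS v0 |>.1 hu).1, (SimpleGraph.mem_neighborFinset _ _ _).2 h2.symm⟩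
    have hcount2 : ∀ a ∈ S, ∀ a' ∈ S, a ≠ a' → (W'.filter (fun x => G.Adj a x ∧ G.Adj a' x)).card = 4 := by
      intro a ha a' ha' hne
      obtain ⟨h1, h2⟩ := hSadj a ha
      obtain ⟨h1', h2'⟩ := hSadj a' ha'
      have hna : ¬ G.Adj a a' := fun h3 => srg_no_triangle hh h1 h1' h3
      have h3 : W'.filter (fun x => G.Adj a x ∧ G.Adj a' x) = ((N a ∩ N a').erase v0).erase u := by
        ext x
        simp only [hW', mem_filter, mem_erase, mem_inter, SimpleGraph.mem_neighborFinset]
        constructor
        · rintro ⟨⟨h4, h5⟩, h6, h7⟩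
          exact ⟨h4, (mem_farS v0 |>.1 h5).1, h6, h7⟩
        · rintro ⟨h4, h5, h6, h7⟩
          exact ⟨⟨h4, far_of_adj hh v0 hu h1 h6 h5⟩, h6, h7⟩
      rw [h3, card_erase_of_mem, card_erase_of_mem, srg_card_inter hh hne hna]
      · simp only [mem_inter, SimpleGraph.mem_neighborFinset]
        exact ⟨h1.symm, h1'.symm⟩
      · simp only [mem_erase, mem_inter, SimpleGraph.mem_neighborFinset]
        exact ⟨(mem_farS v0 |>.1 hu).1, h2.symm, h2'.symm⟩
    -- the function
    let f : V → ℕ := fun x => (S.filter (fun a => G.Adj a x)).card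
    have hfcard : ∀ x, f x = ∑ a ∈ S, if G.Adj a x then 1 else 0 := fun x => card_filter _ _
    have hsum1 : ∑ x ∈ W', f x = 120 := by
      simp_rw [hfcard]
      rw [sum_comm]
      have : ∀ a ∈ S, ∑ x ∈ W', (if G.Adj a x then 1 else 0) = 20 := by
        intro a ha
        rw [← card_filter]
        exact hcount1 a ha
      rw [sum_congr rfl this, sum_const, hScard]
      rfl
    have hsum2 : ∑ x ∈ W', f x * f x = 240 := by
      simp_rw [hfcard, sum_mul_sum]
      rw [sum_comm]
      have h5 : ∀ a ∈ S, ∑ x ∈ W', ∑ a' ∈ S, ((if G.Adj a x then 1 else 0) * (if G.Adj a' x then 1 else 0)) = 40 := by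
        intro a ha
        rw [sum_comm]
        have h6 : ∀ a' ∈ S, ∑ x ∈ W', ((if G.Adj a x then 1 else 0) * (if G.Adj a' x then 1 else 0)) =
            if a' = a then 20 else 4 := by
          intro a' ha'
          have h7 : ∑ x ∈ W', ((if G.Adj a x then 1 else 0) * (if G.Adj a' x then 1 else 0)) =
              (W'.filter (fun x => G.Adj a x ∧ G.Adj a' x)).card := by
            rw [card_filter]
            apply sum_congr rfl
            intro x _
            by_cases h8 : G.Adj a x <;> by_cases h9 : G.Adj a' x <;> simp [h8, h9]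
          rw [h7]
          by_cases h8 : a' = a
          · subst h8
            simp only [and_self, if_true]
            exact hcount1 a' ha
          · rw [if_neg h8]
            exact hcount2 a ha a' ha' (Ne.symm h8)
        rw [sum_congr rfl h6, sum_ite, sum_const, sum_const, filter_eq' , if_pos ha, card_singleton,
          filter_ne']
        rw [card_erase_of_mem ha, hScard]
        rfl
      rw [sum_congr rfl h5, sum_const, hScard]
      rfl
    -- adjacent vertices contribute nothing
    have hzero : ∀ x ∈ W', G.Adj u x → f x = 0 := by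
      intro x _ hx
      rw [card_eq_zero, filter_eq_empty_iff]
      intro a ha hax
      exact srg_no_triangle hh (hSadj a ha).2 hx hax
    have hWcard : W.card = 60 := by
      have h1 : (W'.filter (fun x => G.Adj u x)) = (N u).filter (fun x => x ∉ N v0) := by
        ext x
        simp only [hW', mem_filter, mem_erase, SimpleGraph.mem_neighborFinset]
        constructor
        · rintro ⟨⟨_, h5⟩, h6⟩
          exact ⟨h6, (mem_farS v0 |>.1 h5).2⟩
        · rintro ⟨h6, h7⟩
          refine ⟨⟨(G.ne_of_adj h6).symm, ?_⟩, h6⟩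
          rw [mem_farS]
          refine ⟨?_, h7⟩
          intro h8
          exact (mem_farS v0 |>.1 hu).2 (h8 ▸ h6).symm
      have h2 : ((N u).filter (fun x => x ∉ N v0)).card = 16 := by
        have h3 := card_filter_add_card_filter_not (s := N u) (fun x => x ∈ N v0)
        have h4 : (N u).filter (fun x => x ∈ N v0) = N v0 ∩ N u := by
          ext x
          simp [and_comm]
        rw [h4, hScard, srg_card_neighbors hh u] at h3
        omega
      have h3 := card_filter_add_card_filter_not (s := W') (fun x => G.Adj u x)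
      have h4 : W'.card = 76 := by
        rw [hW', card_erase_of_mem hu, card_farS hh]
      rw [h1, h2, h4] at h3
      rw [hW]
      omega
    have hsplit : ∀ g : V → ℕ, (∀ x ∈ W', G.Adj u x → g x = 0) → ∑ x ∈ W', g x = ∑ x ∈ W, g x := by
      intro g hg
      rw [hW, sum_filter]
      apply sum_congr rfl
      intro x hx
      by_cases h5 : G.Adj u x
      · simp [h5, hg x hx h5]
      · simp [h5]
    have hsum1' : ∑ x ∈ W, f x = 120 := by rw [← hsplit f hzero, hsum1]
    have hsum2' : ∑ x ∈ W, f x * f x = 240 := by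
      rw [← hsplit (fun x => f x * f x) (fun x hx hadj => by simp [hzero x hx hadj]), hsum2]
    have hsq : ∑ x ∈ W, (((f x : ℤ) - 2) ^ 2) = 0 := by
      have h5 : ∀ x ∈ W, (((f x : ℤ) - 2) ^ 2) = ((f x * f x : ℕ) : ℤ) - 4 * (f x : ℤ) + 4 := by
        intro x _
        push_cast
        ring
      rw [sum_congr rfl h5, sum_add_distrib, sum_sub_distrib, ← Nat.cast_sum, ← mul_sum, ← Nat.cast_sum,
        hsum1', hsum2', sum_const, hWcard]
      norm_num
    have hall := (sum_eq_zero_iff_of_nonneg (fun x _ => sq_nonneg _)).1 hsq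
    have hwW : w ∈ W := by
      rw [hW, mem_filter, hW', mem_erase]
      exact ⟨⟨huw.symm, hw⟩, hna⟩
    have h5 := hall w hwW
    have h6 : (f w : ℤ) = 2 := by
      have := pow_eq_zero_iff (two_ne_zero) |>.1 h5
      omega
    have h7 : f w = 2 := by exact_mod_cast h6
    rw [← h7]
    congr 1
    ext a
    simp only [mem_inter, mem_filter, SimpleGraph.mem_neighborFinset, hS]
    constructor
    · rintro ⟨h8, h9⟩
      exact ⟨h8, h9.symm⟩
    · rintro ⟨h8, h9⟩
      exact ⟨h8, h9.symm⟩

end


section model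

variable {V : Type*} [Fintype V] [DecidableEq V] {G : SimpleGraph V} [DecidableRel G.Adj]

variable (G) in
/-- The points attached to a vertex: its neighbours. -/
abbrev PtS (v0 : V) : Type _ := {a // a ∈ G.neighborFinset v0}

variable (G) in
/-- The block attached to a vertex. -/
def blkS (v0 u : V) : Finset (PtS G v0) := Finset.subtype _ (G.neighborFinset u)

theorem mem_blkS {v0 u : V} {a : PtS G v0} : a ∈ blkS G v0 u ↔ G.Adj u a.1 := by
  simp [blkS]

variable (G) in
/-- The blocks. -/
def blocksS (v0 : V) : Set (Finset (PtS G v0)) := (blkS G v0) '' (farS G v0 : Set V)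

variable (h : G.IsSRGWith 100 22 0 6) (v0 : V)

include h in
theorem card_PtS : Fintype.card (PtS G v0) = 22 := by
  rw [Fintype.card_coe, srg_card_neighbors h]

theorem card_inter_blkS {u w : V} : ((blkS G v0 u) ∩ (blkS G v0 w)).card =
    (G.neighborFinset v0 ∩ G.neighborFinset u ∩ G.neighborFinset w).card := by
  have h1 : ((blkS G v0 u) ∩ (blkS G v0 w)).map (Function.Embedding.subtype _) =
      G.neighborFinset v0 ∩ G.neighborFinset u ∩ G.neighborFinset w := by
    ext a
    rw [mem_map]
    constructor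
    · rintro ⟨a', ha', rfl⟩
      rw [mem_inter, mem_blkS, mem_blkS] at ha'
      simp only [mem_inter, SimpleGraph.mem_neighborFinset, Function.Embedding.subtype_apply]
      exact ⟨⟨(SimpleGraph.mem_neighborFinset _ _ _).1 a'.2, ha'.1⟩, ha'.2⟩
    · intro ha
      simp only [mem_inter, SimpleGraph.mem_neighborFinset] at ha
      refine ⟨⟨a, (SimpleGraph.mem_neighborFinset _ _ _).2 ha.1.1⟩, ?_, rfl⟩
      rw [mem_inter, mem_blkS, mem_blkS]
      exact ⟨ha.1.2, ha.2⟩
  rw [← h1, card_map]

include h in
theorem card_blkS {u : V} (hu : u ∈ farS G v0) : (blkS G v0 u).card = 6 := by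
  rw [← inter_self (blkS G v0 u), card_inter_blkS]
  have h2 : G.neighborFinset v0 ∩ G.neighborFinset u ∩ G.neighborFinset u = G.neighborFinset v0 ∩ G.neighborFinset u := by
    rw [inter_assoc, inter_self]
  rw [h2]
  exact srg_card_inter h ((mem_farS v0).1 hu).1.symm ((mem_farS v0).1 hu).2

include h in
theorem blkS_inter {u w : V} (hu : u ∈ farS G v0) (hw : w ∈ farS G v0) (huw : u ≠ w) :
    (G.Adj u w → ((blkS G v0 u) ∩ (blkS G v0 w)).card = 0) ∧
      (¬ G.Adj u w → ((blkS G v0 u) ∩ (blkS G v0 w)).card = 2) := by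
  rw [card_inter_blkS]
  exact far_inter v0 hw huw h hu

include h in
theorem blkS_injOn {u w : V} (hu : u ∈ farS G v0) (hw : w ∈ farS G v0) (he : blkS G v0 u = blkS G v0 w) :
    u = w := by
  by_contra huw
  have h1 := blkS_inter h v0 hu hw huw
  rw [← he, inter_self, card_blkS h v0 hu] at h1
  by_cases h2 : G.Adj u w
  · have := h1.1 h2
    omega
  · have := h1.2 h2
    omega

include h in
/-- The Steiner system. -/
theorem steiner_blocksS : IsSteinerSystem 3 6 (blocksS G v0) := by
  have hle : ∀ u ∈ farS G v0, ∀ w ∈ farS G v0, u ≠ w → ((blkS G v0 u) ∩ (blkS G v0 w)).card ≤ 2 := by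
    intro u hu w hw huw
    have h1 := blkS_inter h v0 hu hw huw
    by_cases h2 : G.Adj u w
    · have := h1.1 h2
      omega
    · have := h1.2 h2
      omega
  have hdisj : (↑(farS G v0) : Set V).PairwiseDisjoint (fun u => (blkS G v0 u).powersetCard 3) := by
    intro u hu w hw huw
    rw [Function.onFun, Finset.disjoint_left]
    intro T hT hT'
    rw [mem_powersetCard] at hT hT'
    have h1 : T ⊆ (blkS G v0 u) ∩ (blkS G v0 w) := subset_inter hT.1 hT'.1
    have h2 := card_le_card h1
    have h3 := hle u hu w hw huw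
    omega
  have hcov : (farS G v0).biUnion (fun u => (blkS G v0 u).powersetCard 3) = (univ : Finset (PtS G v0)).powersetCard 3 := by
    apply eq_of_subset_of_card_le
    · intro T hT
      rw [mem_biUnion] at hT
      obtain ⟨u, _, hT⟩ := hT
      rw [mem_powersetCard] at hT ⊢
      exact ⟨subset_univ _, hT.2⟩
    · rw [card_biUnion hdisj]
      have h1 : ∀ u ∈ farS G v0, ((blkS G v0 u).powersetCard 3).card = 20 := by
        intro u hu
        rw [card_powersetCard, card_blkS h v0 hu]
        decide
      rw [sum_congr rfl h1, sum_const, card_farS h, card_powersetCard, card_univ, card_PtS h]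
      decide
  constructor
  · rintro _ ⟨u, hu, rfl⟩
    exact card_blkS h v0 hu
  · intro T hT
    have h1 : T ∈ (univ : Finset (PtS G v0)).powersetCard 3 := by
      rw [mem_powersetCard]
      exact ⟨subset_univ _, hT⟩
    rw [← hcov, mem_biUnion] at h1
    obtain ⟨u, hu, hTu⟩ := h1
    rw [mem_powersetCard] at hTu
    refine ⟨blkS G v0 u, ⟨⟨u, hu, rfl⟩, hTu.1⟩, ?_⟩
    rintro _ ⟨⟨w, hw, rfl⟩, hTw⟩
    by_contra hne
    have huw : u ≠ w := fun h2 => hne (by rw [h2])
    have h2 : T ⊆ (blkS G v0 u) ∩ (blkS G v0 w) := subset_inter hTu.1 hTw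
    have h3 := card_le_card h2
    have h4 := hle u hu w hw huw
    omega

open Classical in
/-- The map from the vertices to the vertices of the graph of the system. -/
noncomputable def srgMap (x : V) : Option (PtS G v0 ⊕ blocksS G v0) :=
  if h0 : x = v0 then none
  else if h1 : G.Adj v0 x then some (Sum.inl ⟨x, (SimpleGraph.mem_neighborFinset _ _ _).2 h1⟩)
  else some (Sum.inr ⟨blkS G v0 x, x, (mem_farS v0).2 ⟨h0, h1⟩, rfl⟩)

theorem srgMap_self : srgMap (G := G) v0 v0 = none := by simp [srgMap]

theorem srgMap_near {x : V} (h1 : G.Adj v0 x) :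
    srgMap (G := G) v0 x = some (Sum.inl ⟨x, (SimpleGraph.mem_neighborFinset _ _ _).2 h1⟩) := by
  have h0 : x ≠ v0 := (G.ne_of_adj h1).symm
  simp [srgMap, h0, h1]

theorem srgMap_far {x : V} (h1 : x ∈ farS G v0) :
    srgMap (G := G) v0 x = some (Sum.inr ⟨blkS G v0 x, x, h1, rfl⟩) := by
  obtain ⟨h0, h2⟩ := (mem_farS v0).1 h1
  simp [srgMap, h0, h2]

theorem vertex_cases (x : V) : v0 = x ∨ G.Adj v0 x ∨ x ∈ farS G v0 := by
  by_cases h0 : x = v0
  · exact Or.inl h0.symm
  by_cases h1 : G.Adj v0 x
  · exact Or.inr (Or.inl h1)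
  · exact Or.inr (Or.inr ((mem_farS v0).2 ⟨h0, h1⟩))

include h in
theorem srgMap_injective : Function.Injective (srgMap (G := G) v0) := by
  intro x y hxy
  rcases vertex_cases (G := G) v0 x with rfl | hx | hx <;> rcases vertex_cases (G := G) v0 y with rfl | hy | hy
  · rfl
  · rw [srgMap_self, srgMap_near _ hy] at hxy
    simp at hxy
  · rw [srgMap_self, srgMap_far _ hy] at hxy
    simp at hxy
  · rw [srgMap_self, srgMap_near _ hx] at hxy
    simp at hxy
  · rw [srgMap_near _ hx, srgMap_near _ hy] at hxy
    simpa using hxy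
  · rw [srgMap_near _ hx, srgMap_far _ hy] at hxy
    simp at hxy
  · rw [srgMap_self, srgMap_far _ hx] at hxy
    simp at hxy
  · rw [srgMap_far _ hx, srgMap_near _ hy] at hxy
    simp at hxy
  · rw [srgMap_far _ hx, srgMap_far _ hy] at hxy
    simp only [Option.some.injEq, Sum.inr.injEq] at hxy
    exact blkS_injOn h v0 hx hy (congrArg Subtype.val hxy)

include h in
theorem srgMap_adj (x y : V) :
    G.Adj x y ↔ (pointBlockGraph (blocksS G v0)).Adj (srgMap v0 x) (srgMap v0 y) := by
  have key : ∀ a u : V, G.Adj v0 a → u ∈ farS G v0 → (G.Adj a u ↔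
      (pointBlockGraph (blocksS G v0)).Adj (srgMap v0 a) (srgMap v0 u)) := by
    intro a u ha hu
    rw [srgMap_near _ ha, srgMap_far _ hu, pb_inl_inr]
    simp only [mem_blkS]
    exact G.adj_comm _ _
  have key0 : ∀ u : V, u ∈ farS G v0 → (G.Adj v0 u ↔
      (pointBlockGraph (blocksS G v0)).Adj (srgMap v0 v0) (srgMap v0 u)) := by
    intro u hu
    rw [srgMap_self, srgMap_far _ hu]
    exact ⟨fun h1 => absurd h1 ((mem_farS v0).1 hu).2, fun h1 => absurd h1 (pb_none_inr _)⟩
  rcases vertex_cases (G := G) v0 x with rfl | hx | hx <;> rcases vertex_cases (G := G) v0 y with rfl | hy | hy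
  · rw [srgMap_self]
    exact ⟨fun h1 => absurd h1 (G.irrefl), fun h1 => absurd h1 pb_none_none⟩
  · rw [srgMap_self, srgMap_near _ hy]
    exact ⟨fun _ => pb_none_inl _, fun _ => hy⟩
  · exact key0 y hy
  · rw [srgMap_self, srgMap_near _ hx]
    exact ⟨fun _ => (pb_none_inl _).symm, fun _ => hx.symm⟩
  · rw [srgMap_near _ hx, srgMap_near _ hy]
    exact ⟨fun h1 => absurd h1 (fun h2 => srg_no_triangle h hx hy h2), fun h1 => absurd h1 (pb_inl_inl _ _)⟩
  · exact key x y hx hy
  · exact (G.adj_comm _ _).trans ((key0 x hx).trans ((pointBlockGraph _).adj_comm _ _))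
  · exact (G.adj_comm _ _).trans ((key y x hy hx).trans ((pointBlockGraph _).adj_comm _ _))
  · rw [srgMap_far _ hx, srgMap_far _ hy, pb_inr_inr]
    by_cases hxy : x = y
    · subst hxy
      exact ⟨fun h1 => absurd h1 (G.irrefl), fun h1 => absurd rfl h1.1⟩
    · have h2 := blkS_inter h v0 hx hy hxy
      constructor
      · intro h3
        refine ⟨fun h4 => hxy (blkS_injOn h v0 hx hy (congrArg Subtype.val h4)), ?_⟩
        rw [disjoint_iff_inter_eq_empty, ← card_eq_zero]
        exact h2.1 h3
      · rintro ⟨_, h4⟩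
        by_contra h5
        have h6 := h2.2 h5
        rw [disjoint_iff_inter_eq_empty.1 h4] at h6
        simp at h6

end model


section iso

variable {V : Type*} [Fintype V] [DecidableEq V] {G : SimpleGraph V} [DecidableRel G.Adj]

/-- The graph is the graph of the system. -/
theorem exists_srgIso (h : G.IsSRGWith 100 22 0 6) (v0 : V) :
    Nonempty (G ≃g pointBlockGraph (blocksS G v0)) := by
  classical
  have hS := steiner_blocksS h v0
  have hcard : Fintype.card V = Fintype.card (Option (PtS G v0 ⊕ blocksS G v0)) := by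
    rw [h.card, Fintype.card_option, Fintype.card_sum, card_PtS h v0, block_card_77 (card_PtS h v0) hS]
  have hb : Function.Bijective (srgMap (G := G) v0) :=
    (Fintype.bijective_iff_injective_and_card _).2 ⟨srgMap_injective h v0, hcard⟩
  exact ⟨⟨Equiv.ofBijective _ hb, fun {x y} => (srgMap_adj h v0 x y).symm⟩⟩

end iso

/-- Isomorphic systems have isomorphic graphs. -/
theorem pb_congr {α β : Type*} [DecidableEq β] (e : α ≃ β) {B : Set (Finset α)} {B' : Set (Finset β)}
    (he : (fun b => b.image e) '' B = B') : Nonempty (pointBlockGraph B ≃g pointBlockGraph B') := by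
  classical
  have he' : (fun b => b.image e.symm) '' B' = B := by
    rw [← he, Set.image_image]
    convert Set.image_id B using 2
    ext x
    simp
  let eB : B ≃ B' :=
    { toFun := fun b => ⟨b.1.image e, he ▸ ⟨b.1, b.2, rfl⟩⟩
      invFun := fun c => ⟨c.1.image e.symm, he' ▸ ⟨c.1, c.2, rfl⟩⟩
      left_inv := fun b => by
        apply Subtype.ext
        ext x
        simp
      right_inv := fun c => by
        apply Subtype.ext
        ext x
        simp }
  have hmem : ∀ (a : α) (b : B), e a ∈ ((eB b : B') : Finset β) ↔ a ∈ (b : Finset α) := by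
    intro a b
    show e a ∈ b.1.image e ↔ _
    simp
  have hdisj : ∀ b c : B, Disjoint ((eB b : B') : Finset β) ((eB c : B') : Finset β) ↔
      Disjoint (b : Finset α) (c : Finset α) := by
    intro b c
    show Disjoint (b.1.image e) (c.1.image e) ↔ _
    rw [Finset.disjoint_image e.injective]
  refine ⟨⟨Equiv.optionCongr (Equiv.sumCongr e eB), fun {x y} => ?_⟩⟩
  rcases x with _ | a | b <;> rcases y with _ | a' | b'
  · exact ⟨fun h => absurd h pb_none_none, fun h => absurd h pb_none_none⟩
  · exact ⟨fun _ => pb_none_inl _, fun _ => pb_none_inl _⟩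
  · exact ⟨fun h => absurd h (pb_none_inr _), fun h => absurd h (pb_none_inr _)⟩
  · exact ⟨fun _ => (pb_none_inl _).symm, fun _ => (pb_none_inl _).symm⟩
  · exact ⟨fun h => absurd h (pb_inl_inl _ _), fun h => absurd h (pb_inl_inl _ _)⟩
  · show (pointBlockGraph B').Adj (some (Sum.inl (e a))) (some (Sum.inr (eB b'))) ↔ _
    rw [pb_inl_inr, pb_inl_inr, hmem]
  · exact ⟨fun h => absurd h.symm (pb_none_inr _), fun h => absurd h.symm (pb_none_inr _)⟩
  · show (pointBlockGraph B').Adj (some (Sum.inr (eB b))) (some (Sum.inl (e a'))) ↔ _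
    rw [SimpleGraph.adj_comm, pb_inl_inr, SimpleGraph.adj_comm, pb_inl_inr, hmem]
  · show (pointBlockGraph B').Adj (some (Sum.inr (eB b))) (some (Sum.inr (eB b'))) ↔ _
    rw [pb_inr_inr, pb_inr_inr, hdisj, eB.injective.ne_iff]

end Cfsg.Agent.Lib.Steiner
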